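import Cfsg.Agent.H72.EG.Sections
import Mathlib

/-!
The squared offender bound on a normal elementary abelian subgroup `V`, inside the group.
-/

set_option autoImplicit false
set_option linter.style.haveILetI false
open scoped commutatorElement

namespace Cfsg.Agent.H72.EG

open Subgroup

universe u

variable {G : Type u} [Group G] [Finite G]

omit [Finite G] in
/-- An element of odd order centralising the involutions of an abelian 2-group centralises it. -/
theorem odd_centralizes_of_omega {Y : Subgroup G} [Y.Normal] (hc : IsMulCommutative Y) (h2 : IsPGroup 2 Y)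
    {z : G} (hz : Odd (orderOf z)) (h : z ∈ centralizer (Cfsg.omegaOne 2 Y : Set G)) :
    z ∈ centralizer (Y : Set G) := by
  have key : ∀ k : ℕ, ∀ y ∈ Y, y ^ 2 ^ k = 1 → z * y * z⁻¹ = y := by
    intro k
    induction k with
    | zero =>
      intro y _ hy1
      rw [pow_zero, pow_one] at hy1
      rw [hy1]; group
    | succ k ih =>
      intro y hy hy1
      have hy2 := ih (y * y) (mul_mem hy hy) (by rw [← sq, ← pow_mul, ← pow_succ', hy1])
      set w := z * y * z⁻¹ * y⁻¹ with hw
      have hwY : w ∈ Y := mul_mem (Subgroup.Normal.conj_mem inferInstance y hy z) (inv_mem hy)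
      have hcy : w * y = y * w := setLike_mul_comm hwY hy
      have hw2 : w * w = 1 := by
        have e : (w * y) * (w * y) = (w * w) * (y * y) := by
          calc (w * y) * (w * y) = w * (y * w) * y := by group
            _ = w * (w * y) * y := by rw [hcy]
            _ = _ := by group
        have e2 : w * y = z * y * z⁻¹ := by rw [hw]; group
        rw [e2, show z * y * z⁻¹ * (z * y * z⁻¹) = z * (y * y) * z⁻¹ by group, hy2] at e
        exact right_eq_mul.1 e
      have hwΩ : w ∈ Cfsg.omegaOne 2 Y := H34.mem_omegaOne hwY (by rw [sq, hw2])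
      have hzw : z * w = w * z := (mem_centralizer_iff.1 h w hwΩ).symm
      obtain ⟨j, hj⟩ := hz
      have hn : w ^ orderOf z = 1 := by
        have hn : ∀ i : ℕ, z ^ i * y * (z ^ i)⁻¹ = w ^ i * y := by
          intro i
          induction i with
          | zero => simp
          | succ i ihi =>
            rw [pow_succ', show z * z ^ i * y * (z * z ^ i)⁻¹ = z * (z ^ i * y * (z ^ i)⁻¹) * z⁻¹ by group,
              ihi]
            calc z * (w ^ i * y) * z⁻¹ = (z * w ^ i) * y * z⁻¹ := by group
              _ = (w ^ i * z) * y * z⁻¹ := by rw [(Commute.pow_right hzw i).eq]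
              _ = w ^ i * (w * y) := by rw [hw]; group
              _ = _ := by rw [← mul_assoc, ← pow_succ, pow_succ']
        have := hn (orderOf z)
        rw [pow_orderOf_eq_one, one_mul, inv_one, mul_one, right_eq_mul] at this
        exact this
      rw [hj, pow_succ, pow_mul, sq, hw2, one_pow, one_mul] at hn
      exact mul_inv_eq_one.1 hn
  refine mem_centralizer_iff.2 fun y hy => ?_
  obtain ⟨k, hk⟩ := h2 ⟨y, hy⟩
  exact (mul_inv_eq_iff_eq_mul.1 (key k y hy (by simpa using congrArg Subtype.val hk))).symm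

/-- The bound. -/
theorem module_bound {V : Subgroup G} [V.Normal] (hV : Cfsg.IsElementaryAbelian 2 V)
    (hO : Cfsg.pCore 2 (G ⧸ centralizer (V : Set G)) = ⊥) (h3 : ¬ Cfsg.Involves (Equiv.Perm (Fin 3)) G)
    (hK : CompK G) (R : Subgroup G) (hR2 : ∀ r ∈ R, r ^ 2 ∈ centralizer (V : Set G)) :
    (R ⊓ centralizer (V : Set G)).relIndex R ^ 2 ≤ (V ⊓ centralizer (R : Set G)).relIndex V ∧
      (R ⊓ centralizer (V : Set G)).relIndex R ^ 2 ≤ Nat.card ↥⁅V, R⁆ := by
  haveI : IsMulCommutative V := hV.1
  letI : CommGroup V :=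
    { (inferInstance : Group V) with mul_comm := fun a b => IsMulCommutative.is_comm.comm a b }
  have hnV : (⊤ : Subgroup G) ≤ normalizer (V : Set G) := (normalizer_eq_top (H := V)).ge
  let φ : G →* MulAut V := (H83.conjRestrict hnV).comp (Subgroup.topEquiv (G := G)).symm.toMonoidHom
  have hφ : ∀ g (v : V), ((φ g v : V) : G) = g * v * g⁻¹ := fun g v => rfl
  let π := QuotientGroup.mk' (centralizer (V : Set G))
  have hker : centralizer (V : Set G) ≤ φ.ker := fun g hg => by
    refine MonoidHom.mem_ker.2 (MulEquiv.ext fun v => Subtype.ext ?_)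
    rw [hφ, ← mem_centralizer_iff.1 hg v v.2, mul_inv_cancel_right]
    rfl
  let ψ : G ⧸ centralizer (V : Set G) →* MulAut V := QuotientGroup.lift _ φ hker
  have hψ : Function.Injective ψ := by
    rw [injective_iff_map_eq_one]
    intro z hz
    obtain ⟨g, rfl⟩ := QuotientGroup.mk'_surjective (centralizer (V : Set G)) z
    refine (QuotientGroup.eq_one_iff g).2 (mem_centralizer_iff.2 fun v hv => ?_)
    have h := congrArg Subtype.val (DFunLike.congr_fun (show φ g = 1 from hz) ⟨v, hv⟩)
    rw [hφ] at h
    exact (mul_inv_eq_iff_eq_mul.1 h).symm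
  obtain ⟨h1, h2⟩ := H34.Suz.offender_bound ψ hψ (fun v => Subtype.ext (H83.mul_self_of_elementary hV v.2)) hO
    (fun h => h3 (H83.involves_of_quotient h)) (compK_of_surjective hK π (QuotientGroup.mk'_surjective _))
    (R.map π) (by
      rintro _ ⟨r, hr, rfl⟩
      rw [← map_mul, ← sq]
      exact (QuotientGroup.eq_one_iff _).2 (hR2 r hr))
  have hcard : Nat.card ↥(R.map π) = (R ⊓ centralizer (V : Set G)).relIndex R := by
    rw [inf_relIndex_left, ← relIndex_ker, QuotientGroup.ker_mk']
  rw [hcard] at h1 h2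
  refine ⟨h1.trans (le_of_eq ?_), h2.trans ?_⟩
  · show _ = ((V ⊓ centralizer (R : Set G)).subgroupOf V).index
    congr 1
    ext v
    rw [mem_subgroupOf]
    constructor
    · intro h
      refine ⟨v.2, mem_centralizer_iff.2 fun r hr => ?_⟩
      have := congrArg Subtype.val (h (π r) ⟨r, hr, rfl⟩)
      exact mul_inv_eq_iff_eq_mul.1 this
    · rintro ⟨-, h⟩ _ ⟨r, hr, rfl⟩
      refine Subtype.ext ?_
      show r * (v : G) * r⁻¹ = v
      rw [mem_centralizer_iff.1 h r hr, mul_inv_cancel_right]
  · rw [← card_subtype V]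
    refine card_le_of_le ?_
    rw [H83.commSub, MonoidHom.map_closure, closure_le]
    rintro _ ⟨_, ⟨_, ⟨r, hr, rfl⟩, v, rfl⟩, rfl⟩
    have e : V.subtype (H83.delta ψ (π r) v) = (v : G)⁻¹ * r * (v : G) * r⁻¹ := by
      rw [H83.delta_apply, div_eq_mul_inv, mul_comm (ψ (π r) v) v⁻¹]
      show (v : G)⁻¹ * (r * (v : G) * r⁻¹) = _
      group
    rw [e]
    simpa [commutatorElement_def, mul_assoc] using commutator_mem_commutator (inv_mem v.2) hr

end Cfsg.Agent.H72.EG
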