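import Cfsg.Prelude.Def_Local
import Cfsg.Prelude.Def_LocalEven
import Mathlib

/-!
Composition factors of normal subgroups, quotients and extensions, for the predicate
"every non-abelian composition factor is a Suzuki group or `PSL₂(3^(2n+1))`".
-/

set_option autoImplicit false
set_option linter.style.haveILetI false

namespace Cfsg.Agent.H72.EG

open Subgroup

universe u

/-- The composition factor hypothesis. -/
abbrev CompK (G : Type u) [Group G] : Prop :=
  Cfsg.IsCompositionKGroupWith Cfsg.IsSuzukiOrPSL2OddPowerThree G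

/-- The predicate on the factors is invariant under isomorphisms. -/
theorem kPred_of_equiv {X Y : Type u} [Group X] [Group Y] (e : X ≃* Y)
    (h : Cfsg.IsSuzukiOrPSL2OddPowerThree X) : Cfsg.IsSuzukiOrPSL2OddPowerThree Y := by
  rcases h with ⟨F, i1, i2, m, hm, hF, ⟨f⟩⟩ | ⟨F, i1, i2, n, hF, ⟨f⟩⟩
  · exact Or.inl ⟨F, i1, i2, m, hm, hF, ⟨e.symm.trans f⟩⟩
  · exact Or.inr ⟨F, i1, i2, n, hF, ⟨e.symm.trans f⟩⟩

variable {G : Type u} [Group G]

/-- A non-abelian simple quotient of a subnormal subgroup satisfies the predicate. -/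
theorem compK_apply (h : CompK G) {H : Subgroup G} (hH : H.IsSubnormal) {S : Type u} [Group S]
    (f : ↥H →* S) (hf : Function.Surjective f) (hs : IsSimpleGroup S) (hna : ¬ IsMulCommutative S) :
    Cfsg.IsSuzukiOrPSL2OddPowerThree S := by
  let e := QuotientGroup.quotientKerEquivOfSurjective f hf
  refine kPred_of_equiv e (h H hH f.ker ?_ ?_)
  · haveI := hs
    haveI : Nontrivial (↥H ⧸ f.ker) := e.toEquiv.nontrivial
    exact IsSimpleGroup.isSimpleGroup_of_surjective e.symm.toMonoidHom e.symm.surjective
  · intro hc
    exact hna ⟨⟨fun a b => e.symm.injective (by rw [map_mul, map_mul]; exact hc.is_comm.comm _ _)⟩⟩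

/-- Subnormal subgroups inherit the hypothesis. -/
theorem compK_subnormal (h : CompK G) {H : Subgroup G} (hH : H.IsSubnormal) : CompK ↥H := by
  intro K hK N _ hs hna
  let e : ↥K ≃* ↥(K.map H.subtype) := K.equivMapOfInjective H.subtype H.subtype_injective
  exact compK_apply h (hK.trans' hH) ((QuotientGroup.mk' N).comp e.symm.toMonoidHom)
    ((QuotientGroup.mk'_surjective N).comp e.symm.surjective) hs hna

/-- Normal subgroups inherit the hypothesis. -/
theorem compK_normal (h : CompK G) {H : Subgroup G} (hH : H.Normal) : CompK ↥H :=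
  compK_subnormal h hH.isSubnormal

/-- Homomorphic images inherit the hypothesis. -/
theorem compK_of_surjective (h : CompK G) {Q : Type u} [Group Q] (f : G →* Q)
    (hf : Function.Surjective f) : CompK Q := by
  intro K hK N _ hs hna
  let f' : ↥(K.comap f) →* ↥K := f.subgroupComap K
  have hf' : Function.Surjective f' := fun k => by
    obtain ⟨g, hg⟩ := hf k
    exact ⟨⟨g, by rw [mem_comap, hg]; exact k.2⟩, Subtype.ext hg⟩
  exact compK_apply h (hK.comap f) ((QuotientGroup.mk' N).comp f')
    ((QuotientGroup.mk'_surjective N).comp hf') hs hna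

/-- An isomorphic group inherits the hypothesis. -/
theorem compK_equiv (h : CompK G) {Q : Type u} [Group Q] (e : G ≃* Q) : CompK Q :=
  compK_of_surjective h e.toMonoidHom e.surjective

/-- An extension of groups with the hypothesis has it. -/
theorem compK_ext {N : Subgroup G} [N.Normal] (hN : CompK ↥N) (hQ : CompK (G ⧸ N)) : CompK G := by
  intro H hH M hMn hs hna
  let π : ↥H →* ↥H ⧸ M := QuotientGroup.mk' M
  haveI := hs
  by_cases hle : N.subgroupOf H ≤ M
  · -- the factor lives in the quotient
    let g : ↥H →* ↥(H.map (QuotientGroup.mk' N)) := (QuotientGroup.mk' N).subgroupMap H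
    have hg : Function.Surjective g := (QuotientGroup.mk' N).subgroupMap_surjective H
    have hker : g.ker ≤ π.ker := by
      intro x hx
      rw [QuotientGroup.ker_mk']
      refine hle ?_
      have h1 : ((g x : ↥(H.map (QuotientGroup.mk' N))) : G ⧸ N) = 1 := by
        rw [MonoidHom.mem_ker.1 hx, OneMemClass.coe_one]
      exact mem_subgroupOf.2 ((QuotientGroup.eq_one_iff (x : G)).1 h1)
    let φ := g.liftOfSurjective hg ⟨π, hker⟩
    have hφ : Function.Surjective φ := fun y => by
      obtain ⟨x, rfl⟩ := QuotientGroup.mk'_surjective M y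
      exact ⟨g x, g.liftOfRightInverse_comp_apply _ _ ⟨π, hker⟩ x⟩
    exact compK_apply hQ (hH.map (QuotientGroup.mk'_surjective N)) φ hφ hs hna
  · -- the factor lives in the normal subgroup
    let ι : ↥(H.comap N.subtype) →* ↥H :=
      { toFun := fun x => ⟨((x : ↥N) : G), x.2⟩
        map_one' := rfl
        map_mul' := fun _ _ => rfl }
    have hι : ι.range = N.subgroupOf H := by
      ext x
      constructor
      · rintro ⟨y, rfl⟩
        exact (y : ↥N).2
      · intro hx
        exact ⟨⟨⟨(x : G), hx⟩, x.2⟩, rfl⟩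
    have hsurj : Function.Surjective (π.comp ι) := by
      rw [← MonoidHom.range_eq_top, MonoidHom.range_comp, hι]
      refine ((Subgroup.Normal.map inferInstance π (QuotientGroup.mk'_surjective M))
        |>.eq_bot_or_eq_top).resolve_left ?_
      rw [Subgroup.map_eq_bot_iff, QuotientGroup.ker_mk']
      exact hle
    exact compK_apply hN (hH.comap N.subtype) (π.comp ι) hsurj hs hna

/-- Solvable groups satisfy the hypothesis. -/
theorem compK_of_solvable [Group.IsSolvable G] : CompK G := by
  intro H _ N _ hs hna
  haveI := hs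
  haveI : Group.IsSolvable (↥H ⧸ N) := inferInstance
  exact absurd ⟨⟨IsSimpleGroup.comm_iff_isSolvable.2 inferInstance⟩⟩ hna

end Cfsg.Agent.H72.EG
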