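import Cfsg.Agent.H20.Hyperplane
import Cfsg.Agent.H20.External
import Mathlib

/-!
An abelian `r`-group acting on a 2-group `M` with a given elementary quotient of rank `d`
has a fixed point subgroup of index at least `2 ^ (N d)`.
-/

set_option autoImplicit false
set_option linter.style.haveILetI false

namespace Cfsg.Agent.H72.EG

open Subgroup

variable {G : Type*} [Group G] [Finite G]

/-- One step: two fixed point groups with the smaller one fixed by an `r`-group. -/
theorem pow_dvd_step {r N i j : ℕ} (hr : r.Prime) (hr2 : r ≠ 2)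
    (hN : ∀ k, r ∣ 2 ^ k - 1 → N ∣ k) (hji : j < i) (hmod : 2 ^ i ≡ 2 ^ j [MOD r]) :
    N ≤ i - j := by
  have h1 : r ∣ 2 ^ i - 2 ^ j :=
    (Nat.modEq_iff_dvd' (Nat.pow_le_pow_right (by norm_num) hji.le)).1 hmod.symm
  have h2 : 2 ^ i - 2 ^ j = 2 ^ j * (2 ^ (i - j) - 1) := by
    rw [Nat.mul_sub, mul_one, ← pow_add, Nat.add_sub_cancel' hji.le]
  rw [h2] at h1
  exact Nat.le_of_dvd (by omega) (hN _ (((Nat.coprime_primes hr Nat.prime_two).2 hr2).pow_right j
    |>.dvd_of_dvd_mul_left h1))

theorem fixed_index_step {r N : ℕ} (hr : r.Prime) (hr2 : r ≠ 2)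
    (hN : ∀ k, r ∣ 2 ^ k - 1 → N ∣ k) {R C : Subgroup G} (hR : IsPGroup r R) (hC : IsPGroup 2 C)
    (hRC : R ≤ normalizer (C : Set G)) (hne : ¬ C ≤ centralizer (R : Set G)) :
    2 ^ N * Nat.card ↥(C ⊓ centralizer (R : Set G)) ≤ Nat.card C := by
  haveI : Fact r.Prime := ⟨hr⟩
  letI : MulAction R C := MulAction.compHom C (H20.conjAut hRC)
  have hfix : Nat.card ↥(MulAction.fixedPoints R C) = Nat.card ↥(C ⊓ centralizer (R : Set G)) := by
    refine Nat.card_congr
      { toFun := fun x => ⟨((x : ↥C) : G), (x : ↥C).2, mem_centralizer_iff.2 fun a ha => ?_⟩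
        invFun := fun x => ⟨⟨x.1, x.2.1⟩, fun a => Subtype.ext ?_⟩
        left_inv := fun _ => rfl
        right_inv := fun _ => rfl }
    · exact mul_inv_eq_iff_eq_mul.1 (congrArg Subtype.val (x.2 ⟨a, ha⟩))
    · show (a : G) * x.1 * (a : G)⁻¹ = x.1
      rw [mem_centralizer_iff.1 x.2.2 _ a.2, mul_inv_cancel_right]
  have hmod := hR.card_modEq_card_fixedPoints (α := C)
  rw [hfix] at hmod
  have hlt : Nat.card ↥(C ⊓ centralizer (R : Set G)) < Nat.card C := lt_of_not_ge fun h =>
    hne ((eq_of_le_of_card_ge (inf_le_left : C ⊓ centralizer (R : Set G) ≤ C) h) ▸ inf_le_right)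
  obtain ⟨i, hi⟩ := hC.exists_card_eq
  obtain ⟨j, hj⟩ := (hC.to_le (inf_le_left : C ⊓ centralizer (R : Set G) ≤ C)).exists_card_eq
  rw [hi, hj] at hmod hlt ⊢
  have hji : j < i := (Nat.pow_lt_pow_iff_right (by norm_num)).1 hlt
  have := pow_dvd_step hr hr2 hN hji hmod
  rw [← pow_add]
  exact Nat.pow_le_pow_right (by norm_num) (by omega)

/-- The count. -/
theorem count {r N : ℕ} (hr : r.Prime) (hr2 : r ≠ 2) (hN : ∀ k, r ∣ 2 ^ k - 1 → N ∣ k)
    {M : Subgroup G} (hM : IsPGroup 2 M) : ∀ (d : ℕ) (R K0 : Subgroup G), IsMulCommutative R →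
      IsPGroup r R → R ≤ normalizer (M : Set G) → K0 ≤ R →
      R ⊓ centralizer (M : Set G) ≤ K0 → (∀ x ∈ R, x ^ r ∈ K0) → r ^ d ≤ K0.relIndex R →
      2 ^ (N * d) * Nat.card ↥(M ⊓ centralizer (R : Set G)) ≤ Nat.card M := by
  intro d
  induction d with
  | zero =>
    intro R K0 _ _ _ _ _ _ _
    simpa using Subgroup.card_le_of_le (inf_le_left : M ⊓ centralizer (R : Set G) ≤ M)
  | succ d ih =>
    intro R K0 hRc hRp hRM hK0R hK0 hpow hd
    haveI := hRc
    haveI : Fact r.Prime := ⟨hr⟩
    have hne : ¬ M ≤ centralizer (R : Set G) := fun h => by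
      have h1 : R ≤ K0 := (le_inf le_rfl (le_centralizer_iff.1 h)).trans hK0
      rw [relIndex_eq_one.2 h1] at hd
      exact absurd hd (not_le.2 (Nat.one_lt_pow (by omega) hr.one_lt))
    have hcop : (Nat.card R).Coprime (Nat.card M) := IsPGroup.coprime_card_of_ne r 2 hr2 _ _ hRp hM
    obtain ⟨R1, hR1, ⟨a, ha, hR1a⟩, hR1M⟩ : ∃ R1 : Subgroup G, R1 ≤ R ∧
        (∃ a ∈ R, R1 ⊔ zpowers a = R) ∧
          ¬ M ⊓ centralizer (R1 : Set G) ≤ centralizer (R : Set G) := by
      by_contra hcon
      push Not at hcon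
      exact hne (H20.le_of_cocyclic_centralizers_le hRM hcop fun B hB hBa => hcon B hB hBa)
    have hcomm : ∀ x ∈ R, ∀ y ∈ R, x * y = y * x := fun x hx y hy => setLike_mul_comm hx hy
    have hR1c : IsMulCommutative R1 :=
      ⟨⟨fun x y => Subtype.ext (hcomm _ (hR1 x.2) _ (hR1 y.2))⟩⟩
    have hidx : r ^ d ≤ (K0 ⊓ R1).relIndex R1 := by
      rw [inf_relIndex_right]
      have hHle : R1 ⊔ K0 ≤ R := sup_le hR1 hK0R
      have hn : R ≤ normalizer (K0 : Set G) := fun x hx => mem_normalizer_iff.2 fun k => by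
        constructor
        · intro hk
          rwa [hcomm x hx k (hK0R hk), mul_inv_cancel_right]
        · intro hk
          have h2 := hK0R hk
          have h1 : k ∈ R := by simpa [mul_assoc] using mul_mem (mul_mem (inv_mem hx) h2) hx
          rwa [hcomm x hx k h1, mul_inv_cancel_right] at hk
      haveI : (K0.subgroupOf (K0 ⊔ R1)).Normal :=
        normal_subgroupOf_of_le_normalizer ((sup_comm K0 R1).trans_le hHle |>.trans hn)
      have h1 : K0.relIndex R1 = K0.relIndex (K0 ⊔ R1) := by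
        rw [← relIndex_subgroupOf (le_sup_right : R1 ≤ K0 ⊔ R1),
          ← relIndex_sup_left (H := R1.subgroupOf (K0 ⊔ R1)),
          ← subgroupOf_sup le_sup_left le_sup_right, subgroupOf_self,
          ← subgroupOf_self (H := K0 ⊔ R1), relIndex_subgroupOf le_rfl]
      have hHR : R ≤ normalizer ((K0 ⊔ R1 : Subgroup G) : Set G) := fun x hx =>
        mem_normalizer_iff.2 fun k => by
          have hle : K0 ⊔ R1 ≤ R := sup_le hK0R hR1
          constructor
          · intro hk
            rwa [hcomm x hx k (hle hk), mul_inv_cancel_right]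
          · intro hk
            have h2 := hle hk
            have h1 : k ∈ R := by simpa [mul_assoc] using mul_mem (mul_mem (inv_mem hx) h2) hx
            rwa [hcomm x hx k h1, mul_inv_cancel_right] at hk
      have h2 : (K0 ⊔ R1).relIndex R ≤ r := by
        have hcard : Nat.card R ≤ r * Nat.card ↥(K0 ⊔ R1) := by
          let f : Fin r × ↥(K0 ⊔ R1) → ↥R := fun p =>
            ⟨(p.2 : G) * a ^ (p.1 : ℕ), R.mul_mem (sup_le hK0R hR1 p.2.2) (R.pow_mem ha _)⟩
          have hf : Function.Surjective f := by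
            rintro ⟨x, hx⟩
            have hx' : x ∈ (K0 ⊔ R1) ⊔ zpowers a := by
              rw [sup_assoc, hR1a]; exact mem_sup_right hx
            rw [← SetLike.mem_coe, coe_mul_of_right_le_normalizer_left _ _
              ((zpowers_le.2 ha).trans hHR), Set.mem_mul] at hx'
            obtain ⟨u, hu, w, hw, rfl⟩ := hx'
            obtain ⟨m, rfl⟩ := mem_zpowers_iff.1 hw
            refine ⟨(⟨(m % r).toNat, ?_⟩, ⟨u * (a ^ r) ^ (m / r), mul_mem hu
              (zpow_mem (mem_sup_left (hpow a ha)) _)⟩), Subtype.ext ?_⟩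
            · have := Int.emod_lt_of_pos m (show (0 : ℤ) < r by exact_mod_cast hr.pos)
              have := Int.emod_nonneg m (show (r : ℤ) ≠ 0 by exact_mod_cast hr.ne_zero)
              omega
            · show u * (a ^ r) ^ (m / r) * a ^ ((m % r).toNat) = u * a ^ m
              rw [← zpow_natCast a ((m % r).toNat), ← zpow_natCast a r, ← zpow_mul, mul_assoc,
                ← zpow_add, Int.toNat_of_nonneg (Int.emod_nonneg _ (by exact_mod_cast hr.ne_zero)),
                Int.mul_ediv_add_emod]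
          have := Nat.card_le_card_of_surjective f hf
          rwa [Nat.card_prod, Nat.card_fin] at this
        have h4 := relIndex_mul_relIndex (⊥ : Subgroup G) (K0 ⊔ R1) R bot_le (sup_le hK0R hR1)
        rw [relIndex_bot_left, relIndex_bot_left] at h4
        rw [← h4, mul_comm r] at hcard
        exact Nat.le_of_mul_le_mul_left hcard Nat.card_pos
      have h3 := relIndex_mul_relIndex K0 (K0 ⊔ R1) R le_sup_left (sup_le hK0R hR1)
      rw [← h3, ← h1, pow_succ] at hd
      exact Nat.le_of_mul_le_mul_right (hd.trans (Nat.mul_le_mul_left _ h2)) hr.pos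
    have hih := ih R1 (K0 ⊓ R1) hR1c (hRp.to_le hR1) (hR1.trans hRM) inf_le_right
      (le_inf ((inf_le_inf_right _ hR1).trans hK0) inf_le_left)
      (fun x hx => ⟨hpow x (hR1 hx), R1.pow_mem hx r⟩) hidx
    have hstep := fixed_index_step hr hr2 hN hRp
      (hM.to_le (inf_le_left : M ⊓ centralizer (R1 : Set G) ≤ M))
      (fun x hx => mem_normalizer_iff.2 fun m => by
        have hc : x ∈ normalizer (centralizer (R1 : Set G) : Set G) :=
          le_normalizer (show x ∈ centralizer (R1 : Set G) from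
            mem_centralizer_iff.2 fun y hy => hcomm y (hR1 hy) x hx)
        exact and_congr (mem_normalizer_iff.1 (hRM hx) m) (mem_normalizer_iff.1 hc m))
      hR1M
    have he : M ⊓ centralizer (R1 : Set G) ⊓ centralizer (R : Set G) = M ⊓ centralizer (R : Set G) := by
      rw [inf_assoc, inf_eq_right.2 (centralizer_le hR1)]
    rw [he] at hstep
    calc 2 ^ (N * (d + 1)) * Nat.card ↥(M ⊓ centralizer (R : Set G))
        = 2 ^ (N * d) * (2 ^ N * Nat.card ↥(M ⊓ centralizer (R : Set G))) := by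
          rw [Nat.mul_succ, pow_add, mul_assoc]
      _ ≤ 2 ^ (N * d) * Nat.card ↥(M ⊓ centralizer (R1 : Set G)) := Nat.mul_le_mul_left _ hstep
      _ ≤ Nat.card M := hih

end Cfsg.Agent.H72.EG
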