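import Cfsg.Prelude.Def_LocalEven
import Cfsg.Agent.H34.Thompson
import Cfsg.Agent.H83.GoodLocal
import Mathlib

/-!
E-groups inside an ambient group, the first of the two defining inequalities ("strong" subgroups),
and `Ĵ` of a subgroup.
-/

set_option autoImplicit false
set_option linter.style.haveILetI false
open scoped commutatorElement

namespace Cfsg.Agent.H72.EG

open Subgroup

variable {G H : Type*} [Group G] [Group H]

/-- The property tested by E-groups, for subgroups of an ambient group. -/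
def EProp (T V : Subgroup G) : Prop :=
  V ≤ T ∧ T ≤ normalizer (V : Set G) ∧ Cfsg.IsElementaryAbelian 2 V ∧
    ∀ R ≤ T, ⁅R, R⁆ ≤ centralizer (V : Set G) → (∀ r ∈ R, r ^ 2 ∈ centralizer (V : Set G)) →
      ¬ R ≤ centralizer (V : Set G) →
        (Nat.card V) ^ 2 * (Nat.card ↥(R ⊓ centralizer (V : Set G))) ^ 3 >
            (Nat.card R) ^ 3 * (Nat.card ↥(V ⊓ centralizer (R : Set G))) ^ 2 ∧
          Nat.card ↥⁅V, R⁆ * Nat.card ↥(R ⊓ centralizer (V : Set G)) > Nat.card R

/-- `T` is an E-group, in ambient form. -/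
def IsEIn (T : Subgroup G) : Prop := ∀ V, EProp T V → V ≤ centralizer (T : Set G)

/-- The first inequality only, in terms of indices. -/
def Strong (S V : Subgroup G) : Prop :=
  V ≤ S ∧ S ≤ normalizer (V : Set G) ∧ Cfsg.IsElementaryAbelian 2 V ∧
    ∀ R ≤ S, ⁅R, R⁆ ≤ centralizer (V : Set G) → (∀ r ∈ R, r ^ 2 ∈ centralizer (V : Set G)) →
      ¬ R ≤ centralizer (V : Set G) →
        (R ⊓ centralizer (V : Set G)).relIndex R ^ 3 < (V ⊓ centralizer (R : Set G)).relIndex V ^ 2

theorem card_inf_mul_relIndex [Finite G] (A B : Subgroup G) :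
    Nat.card ↥(A ⊓ B) * (A ⊓ B).relIndex A = Nat.card A := by
  have h := relIndex_mul_relIndex (⊥ : Subgroup G) (A ⊓ B) A bot_le inf_le_left
  rwa [relIndex_bot_left, relIndex_bot_left] at h

theorem EProp.strong [Finite G] {T V : Subgroup G} (h : EProp T V) : Strong T V := by
  refine ⟨h.1, h.2.1, h.2.2.1, fun R hR h1 h2 h3 => ?_⟩
  have h4 := (h.2.2.2 R hR h1 h2 h3).1
  rw [← card_inf_mul_relIndex V (centralizer (R : Set G)),
    ← card_inf_mul_relIndex R (centralizer (V : Set G))] at h4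
  refine Nat.lt_of_mul_lt_mul_left (a := Nat.card ↥(V ⊓ centralizer (R : Set G)) ^ 2 *
    Nat.card ↥(R ⊓ centralizer (V : Set G)) ^ 3) ?_
  calc _ = (Nat.card ↥(R ⊓ centralizer (V : Set G)) * (R ⊓ centralizer (V : Set G)).relIndex R) ^ 3 *
        Nat.card ↥(V ⊓ centralizer (R : Set G)) ^ 2 := by ring
    _ < _ := h4
    _ = _ := by ring

/-- Transport of the centraliser along an injective homomorphism. -/
theorem map_centralizer_inf {f : H →* G} (hf : Function.Injective f) (R V : Subgroup H) :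
    (R ⊓ centralizer (V : Set H)).map f = R.map f ⊓ centralizer ((V.map f : Subgroup G) : Set G) := by
  ext x
  constructor
  · rintro ⟨r, ⟨hr, hrV⟩, rfl⟩
    refine ⟨⟨r, hr, rfl⟩, mem_centralizer_iff.2 ?_⟩
    rintro _ ⟨v, hv, rfl⟩
    rw [← map_mul, ← map_mul, mem_centralizer_iff.1 hrV v hv]
  · rintro ⟨⟨r, hr, rfl⟩, hrV⟩
    refine ⟨r, ⟨hr, mem_centralizer_iff.2 fun v hv => hf ?_⟩, rfl⟩
    rw [map_mul, map_mul]
    exact mem_centralizer_iff.1 hrV _ ⟨v, hv, rfl⟩

theorem map_le_centralizer_iff {f : H →* G} (hf : Function.Injective f) (R V : Subgroup H) :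
    R.map f ≤ centralizer ((V.map f : Subgroup G) : Set G) ↔ R ≤ centralizer (V : Set H) := by
  constructor
  · intro h r hr
    refine mem_centralizer_iff.2 fun v hv => hf ?_
    rw [map_mul, map_mul]
    exact mem_centralizer_iff.1 (h ⟨r, hr, rfl⟩) _ ⟨v, hv, rfl⟩
  · rintro h _ ⟨r, hr, rfl⟩
    refine mem_centralizer_iff.2 ?_
    rintro _ ⟨v, hv, rfl⟩
    rw [← map_mul, ← map_mul, mem_centralizer_iff.1 (h hr) v hv]

theorem eProp_map_iff {f : H →* G} (hf : Function.Injective f) {T V : Subgroup H} :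
    EProp (T.map f) (V.map f) ↔ EProp T V := by
  have hcard : ∀ X : Subgroup H, Nat.card ↥(X.map f) = Nat.card X := fun X => card_map_of_injective hf
  have hnorm : ∀ X Y : Subgroup H, X.map f ≤ normalizer ((Y.map f : Subgroup G) : Set G) ↔
      X ≤ normalizer (Y : Set H) := by
    intro X Y
    have hiff : ∀ z, f z ∈ Y.map f ↔ z ∈ Y := fun z =>
      ⟨fun ⟨w, hw, e⟩ => hf e ▸ hw, fun hz => ⟨z, hz, rfl⟩⟩
    constructor
    · intro h x hx
      refine mem_normalizer_iff.2 fun y => ?_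
      rw [← hiff y, ← hiff, map_mul, map_mul, map_inv]
      exact mem_normalizer_iff.1 (h ⟨x, hx, rfl⟩) (f y)
    · intro h
      exact (Subgroup.map_mono h).trans (Y.le_normalizer_map f)
  have hel : Cfsg.IsElementaryAbelian 2 (V.map f) ↔ Cfsg.IsElementaryAbelian 2 V := by
    constructor
    · intro h
      refine ⟨⟨⟨fun a b => Subtype.ext (hf ?_)⟩⟩, fun a ha => hf ?_⟩
      · rw [Subgroup.coe_mul, Subgroup.coe_mul, map_mul, map_mul]
        exact congrArg Subtype.val (h.1.is_comm.comm ⟨f a, ⟨a, a.2, rfl⟩⟩ ⟨f b, ⟨b, b.2, rfl⟩⟩)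
      · rw [map_pow, map_one]; exact h.2 _ ⟨a, ha, rfl⟩
    · exact fun h => H34.isElementaryAbelian_map h f
  have hsq : ∀ R : Subgroup H, (∀ r ∈ R.map f, r ^ 2 ∈ centralizer ((V.map f : Subgroup G) : Set G)) ↔
      ∀ r ∈ R, r ^ 2 ∈ centralizer (V : Set H) := by
    intro R
    constructor
    · intro h r hr
      refine mem_centralizer_iff.2 fun v hv => hf ?_
      rw [map_mul, map_mul, map_pow]
      exact mem_centralizer_iff.1 (h _ ⟨r, hr, rfl⟩) _ ⟨v, hv, rfl⟩
    · rintro h _ ⟨r, hr, rfl⟩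
      refine mem_centralizer_iff.2 ?_
      rintro _ ⟨v, hv, rfl⟩
      rw [← map_pow, ← map_mul, ← map_mul, mem_centralizer_iff.1 (h r hr) v hv]
  unfold EProp
  rw [Subgroup.map_le_map_iff_of_injective hf, hnorm, hel]
  refine and_congr_right fun _ => and_congr_right fun _ => and_congr_right fun _ => ?_
  have key : ∀ R : Subgroup H,
      (⁅R.map f, R.map f⁆ ≤ centralizer ((V.map f : Subgroup G) : Set G) ↔
          ⁅R, R⁆ ≤ centralizer (V : Set H)) ∧
      ((Nat.card ↥(V.map f)) ^ 2 *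
            (Nat.card ↥(R.map f ⊓ centralizer ((V.map f : Subgroup G) : Set G))) ^ 3 >
          (Nat.card ↥(R.map f)) ^ 3 *
            (Nat.card ↥(V.map f ⊓ centralizer ((R.map f : Subgroup G) : Set G))) ^ 2 ∧
        Nat.card ↥⁅V.map f, R.map f⁆ *
            Nat.card ↥(R.map f ⊓ centralizer ((V.map f : Subgroup G) : Set G)) > Nat.card ↥(R.map f) ↔
      (Nat.card V) ^ 2 * (Nat.card ↥(R ⊓ centralizer (V : Set H))) ^ 3 >
          (Nat.card R) ^ 3 * (Nat.card ↥(V ⊓ centralizer (R : Set H))) ^ 2 ∧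
        Nat.card ↥⁅V, R⁆ * Nat.card ↥(R ⊓ centralizer (V : Set H)) > Nat.card R) := by
    intro R
    refine ⟨?_, ?_⟩
    · rw [← map_commutator]; exact map_le_centralizer_iff hf _ _
    · rw [← map_centralizer_inf hf, ← map_centralizer_inf hf, ← map_commutator]
      simp only [hcard]
  constructor
  · intro h R hR h1 h2 h3
    exact (key R).2.1 (h (R.map f) (Subgroup.map_mono hR) ((key R).1.2 h1) ((hsq R).2 h2)
      (fun hc => h3 ((map_le_centralizer_iff hf _ _).1 hc)))
  · intro h R' hR' h1 h2 h3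
    obtain ⟨R, rfl⟩ : ∃ R : Subgroup H, R' = R.map f :=
      ⟨R'.comap f, (map_comap_eq_self (hR'.trans (map_le_range f T))).symm⟩
    exact (key R).2.2 (h R ((Subgroup.map_le_map_iff_of_injective hf).1 hR') ((key R).1.1 h1)
      ((hsq R).1 h2) (fun hc => h3 ((map_le_centralizer_iff hf _ _).2 hc)))

theorem isEIn_map_iff {f : H →* G} (hf : Function.Injective f) {T : Subgroup H} :
    IsEIn (T.map f) ↔ IsEIn T := by
  constructor
  · intro h V hV
    exact (map_le_centralizer_iff hf V T).1 (h _ ((eProp_map_iff hf).2 hV))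
  · intro h V' hV'
    obtain ⟨V, rfl⟩ : ∃ V : Subgroup H, V' = V.map f :=
      ⟨V'.comap f, (map_comap_eq_self (hV'.1.trans (map_le_range f T))).symm⟩
    exact (map_le_centralizer_iff hf V T).2 (h V ((eProp_map_iff hf).1 hV'))

theorem isEIn_top_iff : IsEIn (⊤ : Subgroup H) ↔ Cfsg.IsEGroup H := by
  constructor
  · intro h V hn he hp
    refine (h V ⟨le_top, le_of_eq (normalizer_eq_top_iff.2 hn).symm, he, fun R _ => hp R⟩).trans ?_
    rw [coe_top, centralizer_univ]
  · intro h V hV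
    refine (h V (normalizer_eq_top_iff.1 (top_le_iff.1 hV.2.1)) hV.2.2.1
      fun R => hV.2.2.2 R le_top).trans ?_
    rw [coe_top, centralizer_univ]

theorem isEIn_iff (T : Subgroup G) : IsEIn T ↔ Cfsg.IsEGroup ↥T := by
  rw [← isEIn_top_iff, ← isEIn_map_iff (f := T.subtype) T.subtype_injective, ← MonoidHom.range_eq_map,
    range_subtype]

/-- `Ĵ(S)` inside the ambient group. -/
def jHatOf (S : Subgroup G) : Subgroup G := (Cfsg.jHat ↥S).map S.subtype

theorem jHatOf_eq (S : Subgroup G) :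
    jHatOf S = sSup {U : Subgroup G | U ≤ S ∧ IsEIn U ∧ Cfsg.thompsonSubgroupOf 2 S ≤ U} := by
  apply le_antisymm
  · rw [jHatOf, map_le_iff_le_comap]
    refine sSup_le fun U hU => ?_
    rw [← map_le_iff_le_comap]
    refine le_sSup ⟨map_subtype_le U, ?_, Subgroup.map_mono hU.2⟩
    rw [isEIn_map_iff S.subtype_injective, isEIn_iff]
    exact hU.1
  · refine sSup_le fun U hU => ?_
    obtain ⟨hUS, hE, hJ⟩ := hU
    have hUe : (U.subgroupOf S).map S.subtype = U := map_subgroupOf_eq_of_le hUS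
    rw [← hUe]
    refine Subgroup.map_mono (le_sSup ⟨?_, ?_⟩)
    · rw [← isEIn_iff, ← isEIn_map_iff S.subtype_injective, hUe]
      exact hE
    · rw [← Subgroup.map_le_map_iff_of_injective S.subtype_injective, hUe]
      exact hJ

theorem jHatOf_le (S : Subgroup G) : jHatOf S ≤ S := map_subtype_le _

theorem le_jHatOf {S U : Subgroup G} (hUS : U ≤ S) (hE : IsEIn U)
    (hJ : Cfsg.thompsonSubgroupOf 2 S ≤ U) : U ≤ jHatOf S := by
  rw [jHatOf_eq]
  exact le_sSup ⟨hUS, hE, hJ⟩

open Cfsg.Agent.H83 (maxElem)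

/-- The Thompson subgroup, through the subgroups of largest order. -/
theorem thompson_eq (S : Subgroup G) : Cfsg.thompsonSubgroupOf 2 S = sSup (maxElem S) :=
  H34.thompsonSubgroupOf_eq S

theorem le_thompson {S A : Subgroup G} (hA : A ∈ maxElem S) : A ≤ Cfsg.thompsonSubgroupOf 2 S := by
  rw [thompson_eq]; exact le_sSup hA

theorem exists_maxElem [Finite G] (S : Subgroup G) : ∃ A, A ∈ maxElem S := by
  obtain ⟨A, ⟨hA1, hA2⟩, hmax⟩ := Set.exists_max_image
    {A : Subgroup G | A ≤ S ∧ Cfsg.IsElementaryAbelian 2 A} (fun A => Nat.card A) (Set.toFinite _)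
    ⟨⊥, bot_le, ⟨⟨⟨fun a b => Subsingleton.elim _ _⟩⟩, fun a ha => by rw [mem_bot.1 ha, one_pow]⟩⟩
  exact ⟨A, hA1, hA2, fun B hB hB' => hmax B ⟨hB, hB'⟩⟩

theorem relIndex_inf_pos [Finite G] (A B : Subgroup G) : 1 ≤ (A ⊓ B).relIndex A :=
  Nat.one_le_iff_ne_zero.2 Subgroup.index_ne_zero_of_finite

theorem le_of_relIndex_inf_eq_one {A B : Subgroup G} (h : (A ⊓ B).relIndex A = 1) : A ≤ B :=
  (relIndex_eq_one.1 h).trans inf_le_right

theorem two_le_relIndex_inf [Finite G] {A B : Subgroup G} (h : ¬ A ≤ B) : 2 ≤ (A ⊓ B).relIndex A :=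
  (Nat.two_le_iff _).2 ⟨Subgroup.index_ne_zero_of_finite, fun h1 => h (le_of_relIndex_inf_eq_one h1)⟩

theorem commutator_self_eq_bot {A : Subgroup G} (hA : Cfsg.IsElementaryAbelian 2 A) : ⁅A, A⁆ = ⊥ :=
  commutator_eq_bot_iff_le_centralizer.2 fun _ ha => mem_centralizer_iff.2 fun _ hb =>
    H83.comm_of_elementary hA hb ha

/-- A strong subgroup is centralised by the elementary abelian subgroups of largest order. -/
theorem Strong.max_le_centralizer [Finite G] {S V A : Subgroup G} (h : Strong S V) (hA : A ∈ maxElem S) :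
    A ≤ centralizer (V : Set G) := by
  by_contra hc
  have h1 := h.2.2.2 A hA.1 ((commutator_self_eq_bot hA.2.1).trans_le bot_le)
    (fun r hr => by rw [hA.2.1.2 r hr]; exact one_mem _) hc
  have h2 := H83.exchange hA h.2.2.1 h.1
  have h3 := Nat.pow_le_pow_left h2 2
  have h4 : (A ⊓ centralizer (V : Set G)).relIndex A ^ 2 ≤ (A ⊓ centralizer (V : Set G)).relIndex A ^ 3 :=
    Nat.pow_le_pow_right (relIndex_inf_pos _ _) (by norm_num)
  omega

theorem Strong.thompson_le_centralizer [Finite G] {S V : Subgroup G} (h : Strong S V) :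
    Cfsg.thompsonSubgroupOf 2 S ≤ centralizer (V : Set G) := by
  rw [thompson_eq]; exact sSup_le fun A hA => h.max_le_centralizer hA

/-- A strong subgroup lies in every elementary abelian subgroup of largest order. -/
theorem Strong.le_max [Finite G] {S V A : Subgroup G} (h : Strong S V) (hA : A ∈ maxElem S) : V ≤ A := by
  have hc := h.max_le_centralizer hA
  have hel := H83.elementary_sup hA.2.1 h.2.2.1 fun a ha v hv => (mem_centralizer_iff.1 (hc ha) v hv).symm
  rw [eq_of_le_of_card_ge (le_sup_left : A ≤ A ⊔ V) (hA.2.2 _ (sup_le hA.1 h.1) hel)]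
  exact le_sup_right

theorem maxElem_of_le {S T A : Subgroup G} (hTS : T ≤ S) (hAT : A ≤ T) (hA : A ∈ maxElem S) :
    A ∈ maxElem T :=
  ⟨hAT, hA.2.1, fun B hB hB' => hA.2.2 B (hB.trans hTS) hB'⟩

/-- Some E-group lies between `J(S)` and `T`. -/
theorem exists_eGroup [Finite G] (S : Subgroup G) : ∀ T : Subgroup G,
    Cfsg.thompsonSubgroupOf 2 S ≤ T → T ≤ S →
      ∃ U, U ≤ T ∧ IsEIn U ∧ Cfsg.thompsonSubgroupOf 2 S ≤ U := by
  intro T
  induction hn : Nat.card T using Nat.strong_induction_on generalizing T with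
  | _ n ih =>
    intro hJ hTS
    by_cases hE : IsEIn T
    · exact ⟨T, le_rfl, hE, hJ⟩
    obtain ⟨V, hV, hVc⟩ : ∃ V, EProp T V ∧ ¬ V ≤ centralizer (T : Set G) := by
      simpa [IsEIn] using hE
    have hJ' : Cfsg.thompsonSubgroupOf 2 S ≤ T ⊓ centralizer (V : Set G) := le_inf hJ <| by
      rw [thompson_eq]
      exact sSup_le fun A hA =>
        hV.strong.max_le_centralizer (maxElem_of_le hTS ((le_thompson hA).trans hJ) hA)
    have hlt : T ⊓ centralizer (V : Set G) < T := inf_le_left.lt_of_ne fun he =>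
      hVc (le_centralizer_iff.1 (he ▸ inf_le_right))
    obtain ⟨U, hU1, hU2, hU3⟩ := ih _ (hn ▸ (lt_of_not_ge fun h =>
      hlt.ne (eq_of_le_of_card_ge hlt.le h))) _ rfl hJ' (inf_le_left.trans hTS)
    exact ⟨U, hU1.trans inf_le_left, hU2, hU3⟩

theorem thompson_le_jHatOf [Finite G] (S : Subgroup G) : Cfsg.thompsonSubgroupOf 2 S ≤ jHatOf S := by
  obtain ⟨U, hU1, hU2, hU3⟩ := exists_eGroup S S (H34.thompsonSubgroupOf_le S) le_rfl
  exact hU3.trans (le_jHatOf hU1 hU2 hU3)

/-- `Ĵ` of a subgroup with the same Thompson subgroup is contained in `Ĵ`. -/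
theorem jHatOf_mono {S T : Subgroup G} (hTS : T ≤ S)
    (hJ : Cfsg.thompsonSubgroupOf 2 T = Cfsg.thompsonSubgroupOf 2 S) : jHatOf T ≤ jHatOf S := by
  rw [jHatOf_eq T]
  exact sSup_le fun U hU => le_jHatOf (hU.1.trans hTS) hU.2.1 (hJ ▸ hU.2.2)

/-- `N(S) ≤ N(Ĵ(S))`. -/
theorem normalizer_le_normalizer_jHatOf (S : Subgroup G) :
    normalizer (S : Set G) ≤ normalizer (jHatOf S : Set G) := by
  intro g hg
  rw [mem_normalizer_iff_map_conj_eq] at hg ⊢
  have key : ∀ (x : G), S.map (MulAut.conj x).toMonoidHom = S →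
      (jHatOf S).map (MulAut.conj x).toMonoidHom ≤ jHatOf S := by
    intro x hx
    rw [map_le_iff_le_comap, jHatOf_eq]
    refine sSup_le fun U hU => ?_
    rw [← map_le_iff_le_comap, ← jHatOf_eq]
    refine le_jHatOf ((Subgroup.map_mono hU.1).trans hx.le)
      ((isEIn_map_iff (MulAut.conj x).injective).2 hU.2.1) ?_
    refine le_trans (le_of_eq ?_) (Subgroup.map_mono hU.2.2)
    exact ((H34.map_thompsonSubgroupOf (p := 2) (MulAut.conj x) S).trans (congrArg _ hx)).symm
  refine le_antisymm (key g hg) ?_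
  have hg' : S.map (MulAut.conj g⁻¹).toMonoidHom = S := by
    conv_lhs => rw [← hg]
    rw [Subgroup.map_map]
    convert Subgroup.map_id S using 2
    ext z; simp [mul_assoc]
  intro z hz
  exact ⟨g⁻¹ * z * g, key _ hg' ⟨z, hz, by simp⟩, by simp [mul_assoc]⟩

end Cfsg.Agent.H72.EG
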