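import Cfsg.Agent.H34.SuzOffender.Component
import Cfsg.Agent.H83.SolvableBound
import Cfsg.Agent.H20.Hyperplane
import Cfsg.Agent.H51.FStar
import Cfsg.Prelude.Def_Local
import Mathlib

/-!
For an elementary abelian 2-group `A ≠ 1` in a group with `O₂ = 1`, no `S₃` section and composition
factors among `Sz(q)` and `PSL₂(3^(2n+1))`: a subgroup `B` of small index in `A`, a conjugate of
`A` by an element centralising `B`, and a large abelian `r`-group in the group they generate.
-/

set_option autoImplicit false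
set_option linter.style.haveILetI false

namespace Cfsg.Agent.H72.EG

open Subgroup
open Cfsg.Agent.H34.Suz (el_comm exists_compl exists_prime_ge_five SimpleFacts simpleFacts)

/-- For a prime `r ≥ 5` the order of 2 modulo `r` is at least 3. -/
theorem exists_period {r : ℕ} (hr : r.Prime) (hr5 : 5 ≤ r) :
    ∃ N, 3 ≤ N ∧ ∀ k, r ∣ 2 ^ k - 1 → N ∣ k := by
  haveI : Fact r.Prime := ⟨hr⟩
  have h2 : (2 : ZMod r) ≠ 0 := by
    intro h
    have h' : ((2 : ℕ) : ZMod r) = 0 := by exact_mod_cast h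
    rw [ZMod.natCast_eq_zero_iff] at h'
    have := Nat.le_of_dvd (by norm_num) h'
    omega
  have key : ∀ k, r ∣ 2 ^ k - 1 ↔ (2 : ZMod r) ^ k = 1 := by
    intro k
    rw [← ZMod.natCast_eq_zero_iff, Nat.cast_sub (Nat.one_le_two_pow)]
    push_cast
    exact sub_eq_zero
  refine ⟨orderOf (2 : ZMod r), ?_, fun k hk => orderOf_dvd_of_pow_eq_one ((key k).1 hk)⟩
  by_contra hlt
  push Not at hlt
  have hpos : 0 < orderOf (2 : ZMod r) :=
    orderOf_pos_iff.2 (isOfFinOrder_iff_pow_eq_one.2 ⟨r - 1, by have := hr.two_le; omega,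
      ZMod.pow_card_sub_one_eq_one h2⟩)
  have h1 := pow_orderOf_eq_one (2 : ZMod r)
  have h3 := (key _).2 h1
  interval_cases h : orderOf (2 : ZMod r) <;> simp_all <;>
    exact absurd (Nat.le_of_dvd (by norm_num) h3) (by omega)

variable {H : Type*} [Group H] [Finite H]

omit [Finite H] in
/-- Elements of an elementary abelian group normalise its subgroups. -/
theorem le_normalizer_of_comm {A B : Subgroup H} (hA : ∀ a ∈ A, a * a = 1) (hBA : B ≤ A) {t : H}
    (ht : t ∈ A) : t ∈ normalizer (B : Set H) := by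
  refine mem_normalizer_iff.2 fun z => ⟨fun hz => ?_, fun hz => ?_⟩
  · rwa [el_comm hA ht (hBA hz), mul_inv_cancel_right]
  · have hz' : z ∈ A := by simpa [mul_assoc] using mul_mem (mul_mem (inv_mem ht) (hBA hz)) ht
    rwa [el_comm hA ht hz', mul_inv_cancel_right] at hz

/-- Independent commuting `r`-elements generate a group of large rank. -/
theorem rank_lemma {ι : Type*} {r e : ℕ} (hr : r.Prime) (s : Finset ι) (y : ι → H) (Z : ι → Subgroup H)
    (hc : ∀ i ∈ s, ∀ j ∈ s, y i * y j = y j * y i) (hord : ∀ i ∈ s, y i ^ r ^ e = 1)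
    (hne : ∀ i ∈ s, y i ∉ Z i) (hpow : ∀ i ∈ s, y i ^ r ∈ Z i)
    (hoff : ∀ i ∈ s, ∀ j ∈ s, i ≠ j → y j ∈ Z i) :
    ∃ R0 K0 : Subgroup H, R0 = closure (y '' (s : Set ι)) ∧ IsMulCommutative R0 ∧ IsPGroup r R0 ∧
      K0 ≤ R0 ∧ (∀ x ∈ R0, x ^ r ∈ K0) ∧ r ^ s.card ≤ K0.relIndex R0 := by
  classical
  haveI : Fact r.Prime := ⟨hr⟩
  set R0 := closure (y '' (s : Set ι)) with hR0
  have hRc : IsMulCommutative R0 := by
    refine isMulCommutative_closure ?_
    rintro _ ⟨i, hi, rfl⟩ _ ⟨j, hj, rfl⟩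
    exact hc i hi j hj
  have hcm : ∀ p ∈ R0, ∀ q ∈ R0, p * q = q * p := fun p hp q hq => setLike_mul_comm hp hq
  have hexp : ∀ p ∈ R0, p ^ r ^ e = 1 := by
    intro p hp
    induction hp using closure_induction with
    | mem q hq => obtain ⟨i, hi, rfl⟩ := hq; exact hord i hi
    | one => exact one_pow _
    | mul u v hu hv hu' hv' => rw [Commute.mul_pow (hcm u hu v hv), hu', hv', one_mul]
    | inv u _ hu' => rw [inv_pow, hu', inv_one]
  have hRp : IsPGroup r R0 := fun p => ⟨e, Subtype.ext (by rw [SubmonoidClass.coe_pow]; exact hexp p p.2)⟩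
  set K0 := R0 ⊓ ⨅ i ∈ s, Z i with hK0
  refine ⟨R0, K0, rfl, hRc, hRp, inf_le_left, ?_, ?_⟩
  · intro p hp
    refine mem_inf.2 ⟨pow_mem hp r, ?_⟩
    simp only [mem_iInf]
    intro i hi
    induction hp using closure_induction with
    | mem q hq =>
      obtain ⟨j, hj, rfl⟩ := hq
      by_cases hij : i = j
      · subst hij; exact hpow i hi
      · exact pow_mem (hoff i hi j hj hij) r
    | one => rw [one_pow]; exact one_mem _
    | mul u v hu hv hu' hv' => rw [Commute.mul_pow (hcm u hu v hv)]; exact mul_mem hu' hv'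
    | inv u _ hu' => rw [inv_pow]; exact inv_mem hu'
  · have key : ∀ u : Finset ι, u ⊆ s →
        r ^ u.card ≤ K0.relIndex (K0 ⊔ closure (y '' (u : Set ι))) := by
      intro u
      induction u using Finset.induction_on with
      | empty => intro _; simp [relIndex_self]
      | insert i u hiu ih =>
        intro hsub
        rw [Finset.insert_subset_iff] at hsub
        set U := K0 ⊔ closure (y '' (u : Set ι))
        set U' := K0 ⊔ closure (y '' ((insert i u : Finset ι) : Set ι))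
        have hUU' : U ≤ U' := sup_le_sup_left (Subgroup.closure_mono (Set.image_mono (by simp))) _
        have hU'R : U' ≤ R0 := sup_le inf_le_left (Subgroup.closure_mono (Set.image_mono
          (Finset.coe_subset.2 (Finset.insert_subset_iff.2 hsub))))
        have hUZ : U ≤ Z i := by
          refine sup_le (inf_le_right.trans (iInf₂_le i hsub.1)) ((closure_le _).2 ?_)
          rintro _ ⟨j, hj, rfl⟩
          exact hoff i hsub.1 j (hsub.2 hj) fun he => hiu (he ▸ hj)
        have hnot : ¬ U' ≤ U := fun hle => hne i hsub.1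
          (hUZ (hle (mem_sup_right (subset_closure ⟨i, by simp, rfl⟩))))
        obtain ⟨n, hn⟩ := (hRp.to_le hU'R).exists_card_eq
        have hdvd : U.relIndex U' ∣ r ^ n := hn ▸ U.relIndex_dvd_card U'
        obtain ⟨j, -, hj⟩ := (Nat.dvd_prime_pow hr).1 hdvd
        have hj1 : 1 ≤ j := Nat.one_le_iff_ne_zero.2 fun h0 => hnot (relIndex_eq_one.1 (by
          rw [hj, h0, pow_zero]))
        rw [← relIndex_mul_relIndex K0 U U' le_sup_left hUU', Finset.card_insert_of_notMem hiu,
          pow_succ, hj]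
        exact Nat.mul_le_mul (ih hsub.2) (Nat.le_self_pow (by omega) r)
    have h := key s (Finset.Subset.refl s)
    rwa [sup_eq_right.2 inf_le_left] at h

/-- What the factorization proof needs from the pair `A`, `gAg⁻¹`. -/
def HasPair (A : Subgroup H) : Prop :=
  ∃ (B : Subgroup H) (g : H) (r N d : ℕ) (R0 K0 : Subgroup H), B ≤ A ∧ (∀ b ∈ B, g * b = b * g) ∧
    r.Prime ∧ r ≠ 2 ∧ (∀ k, r ∣ 2 ^ k - 1 → N ∣ k) ∧ IsMulCommutative R0 ∧ IsPGroup r R0 ∧
    R0 ≤ A ⊔ A.map (MulAut.conj g).toMonoidHom ∧ K0 ≤ R0 ∧ (∀ x ∈ R0, x ^ r ∈ K0) ∧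
    1 ≤ N ∧ 1 ≤ d ∧ r ^ d ≤ K0.relIndex R0 ∧ B.relIndex A ^ 4 < 4 * 2 ^ (N * d)

/-- The case in which `A` moves the Fitting subgroup. -/
theorem hasPair_fitting (hO : Cfsg.pCore 2 H = ⊥) (h3 : ¬ Cfsg.Involves (Equiv.Perm (Fin 3)) H)
    {A : Subgroup H} (hA : ∀ a ∈ A, a * a = 1)
    (hAF : ¬ A ≤ centralizer (Cfsg.fittingSubgroup H : Set H)) : HasPair A := by
  haveI := H19.fitting_normal H
  have hodd := H83.fitting_odd hO
  set F := Cfsg.fittingSubgroup H with hFdef
  haveI : IsMulCommutative A := ⟨⟨fun a b => Subtype.ext (el_comm hA a.2 b.2)⟩⟩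
  obtain ⟨i, hi⟩ := (show IsPGroup 2 A from fun a => ⟨1, Subtype.ext (by
    simpa [sq] using hA a a.2)⟩).exists_card_eq
  have hcop : (Nat.card A).Coprime (Nat.card F) := by
    rw [hi]; exact Nat.Coprime.pow_left i (Nat.coprime_two_left.2 hodd)
  have hAN : A ≤ normalizer (F : Set H) := le_top.trans_eq (normalizer_eq_top (H := F)).symm
  obtain ⟨B, hBA, ⟨a, ha, hBa⟩, hBF⟩ : ∃ B : Subgroup H, B ≤ A ∧ (∃ a ∈ A, B ⊔ zpowers a = A) ∧
      ¬ F ⊓ centralizer (B : Set H) ≤ centralizer (A : Set H) := by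
    by_contra hcon
    push Not at hcon
    exact hAF (le_centralizer_iff.1 (H20.le_of_cocyclic_centralizers_le hAN hcop
      fun B hB hBa => hcon B hB hBa))
  obtain ⟨f, ⟨hfF, hfB⟩, hfA⟩ := SetLike.not_le_iff_exists.1 hBF
  have haa := hA a ha
  have hai : a⁻¹ = a := inv_eq_of_mul_eq_one_right haa
  set x := f⁻¹ * (a * f * a⁻¹) with hx
  have hxa : a * x * a = x⁻¹ := by
    rw [hx]
    simp only [mul_inv_rev, inv_inv, hai]
    calc a * (f⁻¹ * (a * f * a)) * a = a * f⁻¹ * a * f * (a * a) := by group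
      _ = a * (f⁻¹ * a) * f := by rw [haa]; group
  have hx1 : x ≠ 1 := by
    intro h
    refine hfA (mem_centralizer_iff.2 fun z hz => ?_)
    have hcom : a * f = f * a := by
      rw [hx, inv_mul_eq_one, eq_mul_inv_iff_mul_eq] at h
      exact h.symm
    have hle : B ⊔ zpowers a ≤ centralizer ({f} : Set H) := sup_le
      (fun b hb => mem_centralizer_singleton_iff.2 (mem_centralizer_iff.1 hfB b hb))
      (zpowers_le.2 (mem_centralizer_singleton_iff.2 hcom))
    exact mem_centralizer_singleton_iff.1 (hle (hBa.ge hz))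
  have hxF : x ∈ F := mul_mem (inv_mem hfF) (Subgroup.Normal.conj_mem inferInstance f hfF a)
  have hxo : Odd (orderOf x) := hodd.of_dvd_nat (Subgroup.orderOf_dvd_natCard F hxF)
  set r := (orderOf x).minFac with hrdef
  have hr : r.Prime := Nat.minFac_prime (fun h => hx1 (orderOf_eq_one_iff.1 h))
  have hrd : r ∣ orderOf x := Nat.minFac_dvd _
  set y := x ^ (orderOf x / r) with hy
  have hyo : orderOf y = r := orderOf_pow_orderOf_div (orderOf_pos x).ne' hrd
  have hya : a * y * a = y⁻¹ := by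
    have h := conj_pow (a := a) (b := x) (i := orderOf x / r)
    rw [hai, hxa, inv_pow] at h
    exact h.symm
  have hyB : ∀ b ∈ B, y * b = b * y := by
    intro b hb
    have hxC : x ∈ centralizer ({b} : Set H) := by
      have h1 : f ∈ centralizer ({b} : Set H) :=
        mem_centralizer_singleton_iff.2 (mem_centralizer_iff.1 hfB b hb).symm
      have h2 : a ∈ centralizer ({b} : Set H) :=
        mem_centralizer_singleton_iff.2 (el_comm hA ha (hBA hb))
      exact mul_mem (inv_mem h1) (mul_mem (mul_mem h2 h1) (inv_mem h2))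
    exact mem_centralizer_singleton_iff.1 (pow_mem hxC _)
  have hr2 : r ≠ 2 := fun h => by
    have h2 : 2 ∣ orderOf x := h ▸ hrd
    exact (Nat.not_even_iff_odd.2 hxo) (even_iff_two_dvd.2 h2)
  have hr3 : r ≠ 3 := fun h => by
    have h1 := H83.no_inverted_of_s3_free h3 (x := y)
      (orderOf_dvd_iff_pow_eq_one.1 (by rw [hyo, h])) haa hya
    rw [h1, orderOf_one] at hyo
    exact hr.one_lt.ne hyo
  have hr5 : 5 ≤ r := by
    have := hr.two_le
    rcases Nat.lt_or_ge r 5 with h | h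
    · interval_cases r <;> simp_all +decide
    · exact h
  obtain ⟨N, hN3, hN⟩ := exists_period hr hr5
  have hbA : B.relIndex A ≤ 2 := by
    have hcard : Nat.card A ≤ 2 * Nat.card B := by
      let fm : Fin 2 × ↥B → ↥A := fun p => ⟨(p.2 : H) * a ^ (p.1 : ℕ), mul_mem (hBA p.2.2) (pow_mem ha _)⟩
      have hf : Function.Surjective fm := by
        rintro ⟨z, hz⟩
        have hz' : z ∈ B ⊔ zpowers a := hBa.ge hz
        rw [← SetLike.mem_coe, coe_mul_of_right_le_normalizer_left _ _ ((zpowers_le.2 ha).trans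
          (show A ≤ normalizer (B : Set H) from fun t ht => le_normalizer_of_comm hA hBA ht)),
          Set.mem_mul] at hz'
        obtain ⟨u, hu, w, hw, rfl⟩ := hz'
        obtain ⟨m, rfl⟩ := mem_zpowers_iff.1 hw
        rcases Int.even_or_odd m with ⟨k, rfl⟩ | ⟨k, rfl⟩
        · exact ⟨(0, ⟨u, hu⟩), Subtype.ext (by
            show u * a ^ (0 : ℕ) = u * a ^ (k + k)
            rw [pow_zero, mul_one, ← two_mul, zpow_mul, zpow_two, haa, one_zpow, mul_one])⟩
        · exact ⟨(1, ⟨u, hu⟩), Subtype.ext (by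
            show u * a ^ (1 : ℕ) = u * a ^ (2 * k + 1)
            rw [pow_one, zpow_add_one, zpow_mul, zpow_two, haa, one_zpow, one_mul])⟩
      have := Nat.card_le_card_of_surjective fm hf
      rwa [Nat.card_prod, Nat.card_fin] at this
    have h4 := relIndex_mul_relIndex (⊥ : Subgroup H) B A bot_le hBA
    rw [relIndex_bot_left, relIndex_bot_left] at h4
    rw [← h4, mul_comm 2] at hcard
    exact Nat.le_of_mul_le_mul_left hcard Nat.card_pos
  refine ⟨B, y, r, N, 1, zpowers y, ⊥, hBA, hyB, hr, hr2, hN, inferInstance, ?_, ?_, bot_le, ?_,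
    by omega, le_rfl, ?_, ?_⟩
  · exact IsPGroup.of_card (n := 1) (by rw [Nat.card_zpowers, hyo, pow_one])
  · rw [zpowers_le]
    have h1 : a * (y * a * y⁻¹) ∈ A ⊔ A.map (MulAut.conj y).toMonoidHom :=
      mul_mem (mem_sup_left ha) (mem_sup_right ⟨a, ha, rfl⟩)
    have h2 : a * (y * a * y⁻¹) = (y ^ 2)⁻¹ := by
      calc a * (y * a * y⁻¹) = (a * y * a) * y⁻¹ := by group
        _ = (y ^ 2)⁻¹ := by rw [hya, sq, mul_inv_rev]
    rw [h2, inv_mem_iff] at h1
    have h3' := pow_mem h1 ((r + 1) / 2)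
    obtain ⟨k, hk⟩ := hr.odd_of_ne_two hr2
    rw [← pow_mul, show 2 * ((r + 1) / 2) = r + 1 by omega, pow_succ, ← hyo, pow_orderOf_eq_one,
      one_mul] at h3'
    exact h3'
  · intro z hz
    rw [mem_bot]
    obtain ⟨k, rfl⟩ := mem_zpowers_iff.1 hz
    rw [← zpow_natCast, ← zpow_mul, mul_comm, zpow_mul, zpow_natCast, ← hyo, pow_orderOf_eq_one, one_zpow]
  · rw [relIndex_bot_left, Nat.card_zpowers, hyo, pow_one]
  · calc B.relIndex A ^ 4 ≤ 2 ^ 4 := Nat.pow_le_pow_left hbA 4
      _ < 4 * 2 ^ 3 := by norm_num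
      _ ≤ 4 * 2 ^ (N * 1) := Nat.mul_le_mul_left _ (Nat.pow_le_pow_right (by norm_num) (by omega))

/-- The case in which `A` centralises the Fitting subgroup and so moves a component. -/
theorem hasPair_component (hO : Cfsg.pCore 2 H = ⊥) (h3 : ¬ Cfsg.Involves (Equiv.Perm (Fin 3)) H)
    (hK : Cfsg.IsCompositionKGroupWith Cfsg.IsSuzukiOrPSL2OddPowerThree H)
    {A : Subgroup H} (hA : ∀ a ∈ A, a * a = 1) (hA1 : A ≠ ⊥)
    (hAF : A ≤ centralizer (Cfsg.fittingSubgroup H : Set H)) : HasPair A := by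
  classical
  have hodd := H83.fitting_odd hO
  obtain ⟨L, hLc, hAL⟩ : ∃ L : Subgroup H, Cfsg.IsComponent L ∧ ¬ A ≤ centralizer (L : Set H) := by
    by_contra hno
    push Not at hno
    refine hA1 ((Subgroup.eq_bot_iff_forall _).2 fun b hb => ?_)
    have hle : Cfsg.generalizedFittingSubgroup H ≤ centralizer ({b} : Set H) := by
      refine sup_le (sSup_le fun K hKc k hk => ?_) fun f hf' => ?_
      · exact mem_centralizer_singleton_iff.2 (mem_centralizer_iff.1 (hno K hKc hb) k hk)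
      · exact mem_centralizer_singleton_iff.2 (mem_centralizer_iff.1 (hAF hb) f hf')
    have hbF : b ∈ Cfsg.fittingSubgroup H := H51.centralizer_generalizedFitting_le_fitting H
      (mem_centralizer_iff.2 fun k hk => mem_centralizer_singleton_iff.1 (hle hk))
    have h1 := Subgroup.orderOf_dvd_natCard _ hbF
    have h2 : orderOf b ∣ 2 := orderOf_dvd_of_pow_eq_one (by rw [sq, hA b hb])
    have := Nat.dvd_gcd h2 h1
    rwa [(Nat.coprime_two_left.2 hodd).gcd_eq_one, Nat.dvd_one, orderOf_eq_one_iff] at this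
  haveI := hLc.2.1
  haveI := hLc.2.2
  have hna : ¬ IsMulCommutative (↥L ⧸ center ↥L) := fun hc => by
    refine H51.quasisimple_not_isMulCommutative hLc.2 (center_eq_top_iff.1 (top_le_iff.1 ?_))
    rw [← Group.IsPerfect.commutator_eq_top (G := ↥L)]
    exact Subgroup.Normal.quotient_commutative_iff_commutator_le.1 hc
  have hns : ¬ Group.IsSolvable (↥L ⧸ center ↥L) := fun h =>
    hna ⟨⟨IsSimpleGroup.comm_iff_isSolvable.2 h⟩⟩
  have hfacts : SimpleFacts (↥L ⧸ center ↥L) :=
    simpleFacts hLc.2.2 hna (hK L hLc.1 (center ↥L) hLc.2.2 hna)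
  set B := A ⊓ centralizer (L : Set H) with hBdef
  set AL := A ⊓ normalizer (L : Set H) with hALdef
  have hBAL : B ≤ AL := inf_le_inf_left _ (centralizer_le_normalizer _)
  obtain ⟨E, hEAL, hEsup, hEinf, hEcard⟩ := exists_compl (A := AL) (fun a ha => hA a ha.1) hBAL
  obtain ⟨A1, hA1A, hA1sup, hA1inf, hA1card⟩ := exists_compl hA (inf_le_left : AL ≤ A)
  have hA1N : ∀ t ∈ A1, t ∈ normalizer (L : Set H) → t = 1 := fun t ht hn =>
    mem_bot.1 (hA1inf.le ⟨⟨hA1A ht, hn⟩, ht⟩)
  have hEC : ∀ t ∈ E, t ∈ centralizer (L : Set H) → t = 1 := fun t ht hc =>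
    mem_bot.1 (hEinf.le ⟨⟨(hEAL ht).1, hc⟩, ht⟩)
  have hb : B.relIndex A = Nat.card E * Nat.card A1 := by
    have h := relIndex_mul_relIndex (⊥ : Subgroup H) B A bot_le inf_le_left
    rw [relIndex_bot_left, relIndex_bot_left, hA1card, hEcard, mul_assoc] at h
    exact Nat.eq_of_mul_eq_mul_left Nat.card_pos h
  obtain ⟨m, hm⟩ := (show IsPGroup 2 A1 from fun a => ⟨1, Subtype.ext (by
    simpa [sq] using hA a (hA1A a.2))⟩).exists_card_eq
  haveI : Fintype ↥A1 := Fintype.ofFinite _
  have hLt : ∀ t u : ↥A1, t ≠ u → ∀ p ∈ L, ∀ q ∈ L,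
      (t : H) * p * (t : H)⁻¹ * ((u : H) * q * (u : H)⁻¹) =
        (u : H) * q * (u : H)⁻¹ * ((t : H) * p * (t : H)⁻¹) := by
    intro t u htu p hp q hq
    have hne : L.map (MulAut.conj (t : H)).toMonoidHom ≠ L.map (MulAut.conj (u : H)).toMonoidHom := by
      intro he'
      refine htu ?_
      have hn : (u : H)⁻¹ * t ∈ normalizer (L : Set H) := by
        rw [mem_normalizer_iff]
        intro z
        have h1 : z ∈ L ↔ (t : H) * z * (t : H)⁻¹ ∈ L.map (MulAut.conj (t : H)).toMonoidHom :=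
          ⟨fun hz => ⟨z, hz, rfl⟩, fun ⟨w, hw, hwz⟩ => (MulAut.conj (t : H)).injective hwz ▸ hw⟩
        rw [h1, he']
        constructor
        · rintro ⟨w, hw, hwz⟩
          have e : w = (u : H)⁻¹ * t * z * ((u : H)⁻¹ * t)⁻¹ := by
            apply (MulAut.conj (u : H)).injective
            rw [show MulAut.conj (u : H) w = (t : H) * z * (t : H)⁻¹ from hwz]
            simp [mul_assoc]
          exact e ▸ hw
        · intro hz; exact ⟨_, hz, by simp [mul_assoc]⟩
      exact Subtype.ext (inv_mul_eq_one.1 (hA1N _ (mul_mem (inv_mem u.2) t.2) hn)).symm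
    have hcomm := (H51.component_eq_or_commute (H51.component_map_conj hLc (t : H))
      (H51.component_map_conj hLc (u : H))).resolve_left hne
    exact ((mem_centralizer_iff.1 (commutator_eq_bot_iff_le_centralizer.1 hcomm ⟨p, hp, rfl⟩)) _
      ⟨q, hq, rfl⟩).symm
  let Z : ↥A1 → Subgroup H := fun t =>
    centralizer ((L.map (MulAut.conj (t : H)).toMonoidHom : Subgroup H) : Set H)
  have hZoff : ∀ t u : ↥A1, t ≠ u → ∀ p ∈ L, (u : H) * p * (u : H)⁻¹ ∈ Z t := by
    intro t u htu p hp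
    refine mem_centralizer_iff.2 ?_
    rintro _ ⟨q, hq, rfl⟩
    exact hLt t u htu q hq p hp
  have hZ1 : ∀ t : ↥A1, t ≠ 1 → ∀ p ∈ L, p ∈ Z t := fun t ht p hp => by
    simpa using hZoff t 1 ht p hp
  have hZself : ∀ (t : ↥A1) (p : ↥L), (t : H) * (p : H) * (t : H)⁻¹ ∈ Z t ↔ p ∈ center ↥L := by
    intro t p
    constructor
    · intro h
      refine mem_center_iff.2 fun q => Subtype.ext ?_
      have h1 := mem_centralizer_iff.1 h _ ⟨q, q.2, rfl⟩
      change (t : H) * q * (t : H)⁻¹ * ((t : H) * p * (t : H)⁻¹) =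
        (t : H) * p * (t : H)⁻¹ * ((t : H) * q * (t : H)⁻¹) at h1
      show (q : H) * p = p * q
      exact mul_right_cancel (mul_left_cancel (a := (t : H))
        (by simpa [mul_assoc] using h1) : (q : H) * p * (t : H)⁻¹ = (p : H) * q * (t : H)⁻¹)
    · intro h
      refine mem_centralizer_iff.2 ?_
      rintro _ ⟨q, hq, rfl⟩
      have h1 : q * (p : H) = (p : H) * q := congrArg Subtype.val (mem_center_iff.1 h ⟨q, hq⟩)
      show (t : H) * q * (t : H)⁻¹ * ((t : H) * p * (t : H)⁻¹) =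
        (t : H) * p * (t : H)⁻¹ * ((t : H) * q * (t : H)⁻¹)
      calc _ = (t : H) * (q * p) * (t : H)⁻¹ := by group
        _ = (t : H) * (p * q) * (t : H)⁻¹ := by rw [h1]
        _ = _ := by group
  have hBL : ∀ p ∈ L, ∀ b ∈ B, p * b = b * p := fun p hp b hb => mem_centralizer_iff.1 hb.2 p hp
  -- an element of `L` giving an `r`-element of prescribed image
  have hlift : ∀ (w : ↥L) (r : ℕ), r.Prime → orderOf (w : ↥L ⧸ center ↥L) = r →
      ∃ (l e : ℕ), (w ^ l) ^ r ^ e = 1 ∧ w ^ l ∉ center ↥L ∧ (w ^ l) ^ r ∈ center ↥L := by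
    intro w r hr hw
    obtain ⟨e, l, hl, he⟩ := Nat.exists_eq_pow_mul_and_not_dvd (orderOf_pos w).ne' r hr.ne_one
    refine ⟨l, e, by rw [← pow_mul, mul_comm, ← he, pow_orderOf_eq_one], fun h => hl ?_, ?_⟩
    · have h1 : (w : ↥L ⧸ center ↥L) ^ l = 1 := by
        rw [← QuotientGroup.mk_pow, QuotientGroup.eq_one_iff]; exact h
      exact hw ▸ orderOf_dvd_of_pow_eq_one h1
    · rw [← QuotientGroup.eq_one_iff, QuotientGroup.mk_pow, QuotientGroup.mk_pow, ← pow_mul, mul_comm,
        pow_mul, ← hw, pow_orderOf_eq_one, one_pow]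
  by_cases hE : E = ⊥
  · -- `A` permutes the components fixed point freely
    have hm1 : 1 ≤ m := by
      refine Nat.one_le_iff_ne_zero.2 fun h0 => hAL ?_
      rw [h0, pow_zero] at hm
      have hbot : A1 = ⊥ := Subgroup.eq_bot_of_card_eq A1 hm
      rw [← hA1sup, hbot, sup_bot_eq, ← hALdef, ← hEsup, hE, sup_bot_eq]
      exact inf_le_right
    obtain ⟨r, hr, hr5, hrd⟩ := exists_prime_ge_five hns
    haveI : Fact r.Prime := ⟨hr⟩
    obtain ⟨xb, hxb⟩ := exists_prime_orderOf_dvd_card' r hrd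
    obtain ⟨x₀, rfl⟩ := QuotientGroup.mk_surjective xb
    obtain ⟨l, e, hxe, hxZ, hxr⟩ := hlift x₀ r hr hxb
    set x := x₀ ^ l
    obtain ⟨N, hN3, hN⟩ := exists_period hr hr5
    let y : ↥A1 → H := fun t => (t : H) * (x : H) * (t : H)⁻¹ * (x : H)⁻¹
    have hxe' : (x : H) ^ r ^ e = 1 := by
      rw [← SubmonoidClass.coe_pow, hxe, OneMemClass.coe_one]
    have hct : ∀ t : ↥A1, Commute ((t : H) * (x : H) * (t : H)⁻¹) (x : H) := by
      intro t
      by_cases ht : t = 1
      · subst ht; simp [Commute, SemiconjBy]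
      · have := hLt t 1 ht x x.2 x x.2
        simpa [Commute, SemiconjBy] using this
    obtain ⟨R0, K0, hR0, hRc, hRp, hK0, hpow, hidx⟩ := rank_lemma (e := e) hr (Finset.univ.erase 1) y Z
      (fun t _ u _ => by
        have h1 : Commute ((t : H) * (x : H) * (t : H)⁻¹) ((u : H) * (x : H) * (u : H)⁻¹) := by
          by_cases htu : t = u
          · rw [htu]
          · exact hLt t u htu x x.2 x x.2
        exact ((h1.mul_right (hct t).inv_right).mul_left ((hct u).symm.inv_left.mul_right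
          (Commute.refl (x : H)⁻¹))).eq)
      (fun t _ => by
        rw [(hct t).inv_right.mul_pow, conj_pow, inv_pow, hxe']; simp)
      (fun t ht h => by
        refine hxZ ((hZself t x).1 ?_)
        have := mul_mem h (hZ1 t (Finset.ne_of_mem_erase ht) _ x.2)
        simpa [y, mul_assoc] using this)
      (fun t ht => by
        rw [(hct t).inv_right.mul_pow, conj_pow, inv_pow]
        refine mul_mem ?_ (inv_mem (pow_mem (hZ1 t (Finset.ne_of_mem_erase ht) _ x.2) r))
        have := (hZself t (x ^ r)).2 hxr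
        rwa [SubmonoidClass.coe_pow] at this)
      (fun t ht u _ htu => mul_mem (hZoff t u htu x x.2)
        (inv_mem (hZ1 t (Finset.ne_of_mem_erase ht) _ x.2)))
    refine ⟨B, (x : H), r, N, 2 ^ m - 1, R0, K0, inf_le_left, hBL x x.2, hr, by omega, hN, hRc, hRp,
      ?_, hK0, hpow, by omega, ?_, ?_, ?_⟩
    · rw [hR0, closure_le]
      rintro _ ⟨t, -, rfl⟩
      have h1 : (t : H) * ((x : H) * (t : H)⁻¹ * (x : H)⁻¹) ∈
          A ⊔ A.map (MulAut.conj (x : H)).toMonoidHom :=
        mul_mem (mem_sup_left (hA1A t.2)) (mem_sup_right ⟨_, inv_mem (hA1A t.2), rfl⟩)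
      simpa [y, mul_assoc] using h1
    · exact Nat.le_sub_one_of_lt (Nat.one_lt_two_pow (by omega))
    · refine le_trans (le_of_eq ?_) hidx
      congr 1
      rw [Finset.card_erase_of_mem (Finset.mem_univ _), Finset.card_univ, ← Nat.card_eq_fintype_card, hm]
    · rw [hb, hE, card_bot, one_mul, hm, ← pow_mul, show (4 : ℕ) * 2 ^ (N * (2 ^ m - 1)) =
        2 ^ (2 + N * (2 ^ m - 1)) by rw [pow_add]; norm_num]
      refine Nat.pow_lt_pow_right (by norm_num) ?_
      have h2m : 2 * m ≤ 2 ^ m := Nat.mul_le_pow (by norm_num) m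
      have h2 : 3 * (2 ^ m - 1) ≤ N * (2 ^ m - 1) := Nat.mul_le_mul_right _ hN3
      omega
  · -- some element of `A` acts on `L` as an inner involution
    obtain ⟨N, hpair, hsmall, houter⟩ := hfacts
    let θ : ↥E →* MulAut (↥L ⧸ center ↥L) :=
      (H52.normAct L).comp (inclusion (hEAL.trans inf_le_right))
    have hθ : Function.Injective θ := by
      rw [injective_iff_map_eq_one]
      exact fun c hc => Subtype.ext (hEC c c.2 ((H52.normAct_eq_one_iff L _).1 hc))
    have hθ2 : ∀ c, θ c * θ c = 1 := fun c => by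
      rw [← map_mul, show c * c = 1 from Subtype.ext (hA c (hEAL c.2).1), map_one]
    have hinner : ∀ c, ∃ g, θ c = MulAut.conj g := by
      intro c
      by_contra hno
      push Not at hno
      obtain ⟨xb, hx3, hx1, hax⟩ := houter (θ c) (hθ2 c) hno
      obtain ⟨x, rfl⟩ := QuotientGroup.mk_surjective xb
      set a : H := (c : H)
      have haa : a * a = 1 := hA a (hEAL c.2).1
      have hai : a⁻¹ = a := inv_eq_of_mul_eq_one_right haa
      have hcx : a * (x : H) * a⁻¹ ∈ L := (mem_normalizer_iff.1 (hEAL c.2).2 x).1 x.2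
      set y : ↥L := x⁻¹ * ⟨_, hcx⟩ with hy
      have hyb : (y : ↥L ⧸ center ↥L) = (x : ↥L ⧸ center ↥L) := by
        rw [hy, QuotientGroup.mk_mul, QuotientGroup.mk_inv, show ((⟨_, hcx⟩ : ↥L) : ↥L ⧸ center ↥L) =
          θ c (x : ↥L ⧸ center ↥L) from
            (H52.normAct_apply L (inclusion (hEAL.trans inf_le_right) c) x).symm, hax, ← mul_inv_rev,
          inv_eq_iff_mul_eq_one, ← hx3, pow_succ, pow_two]
      have hay : a * (y : H) * a = (y : H)⁻¹ := by
        rw [hy]
        simp only [Subgroup.coe_mul, Subgroup.coe_inv]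
        calc a * ((x : H)⁻¹ * (a * (x : H) * a⁻¹)) * a = (a * (x : H)⁻¹ * a) * (x : H) := by group
          _ = ((x : H)⁻¹ * (a * (x : H) * a⁻¹))⁻¹ := by
            rw [hai]; rw [mul_inv_rev, mul_inv_rev, mul_inv_rev, hai]; group
      have h3o : 3 ∣ orderOf (y : H) := by
        rw [orderOf_coe]
        refine dvd_trans ?_ (orderOf_map_dvd (QuotientGroup.mk' (center ↥L)) y)
        rw [QuotientGroup.mk'_apply, hyb, orderOf_eq_prime hx3 hx1]
      set z := (y : H) ^ (orderOf (y : H) / 3)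
      have hz : orderOf z = 3 := orderOf_pow_orderOf_div (orderOf_pos _).ne' h3o
      have hz1 := H83.no_inverted_of_s3_free h3 (x := z) (a := a)
        (by rw [← hz]; exact pow_orderOf_eq_one z) haa (by
          have h := conj_pow (a := a) (b := (y : H)) (i := orderOf (y : H) / 3)
          rw [hai, hay, inv_pow] at h
          exact h.symm)
      rw [hz1, orderOf_one] at hz
      norm_num at hz
    choose g hg using hinner
    have hcent : ∀ u : ↥L ⧸ center ↥L, MulAut.conj u = 1 → u = 1 := by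
      intro u hu
      have hbot : center (↥L ⧸ center ↥L) = ⊥ :=
        H51.center_eq_bot_of_isSimpleGroup fun h =>
          hns (Group.isSolvable_of_comm fun a b => h.is_comm.comm a b)
      have hmem : u ∈ center (↥L ⧸ center ↥L) := mem_center_iff.2 fun w => by
        have := DFunLike.congr_fun hu w
        rw [MulAut.conj_apply, MulAut.one_apply, mul_inv_eq_iff_eq_mul] at this
        exact this.symm
      rwa [hbot, mem_bot] at hmem
    have hgsq : ∀ c, g c * g c = 1 := fun c => hcent _ (by rw [map_mul, ← hg, hθ2])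
    have hg1 : ∀ c, g c = 1 → c = 1 := fun c h => hθ (by rw [hg, h, map_one, map_one])
    let Bb : Subgroup (↥L ⧸ center ↥L) := θ.range.comap MulAut.conj
    have hBb : ∀ u ∈ Bb, u * u = 1 := by
      rintro u ⟨c, hc⟩
      exact hcent _ (by rw [map_mul, ← hc, hθ2])
    have hcardE : Nat.card E ≤ Nat.card Bb :=
      Nat.card_le_card_of_injective (fun c => (⟨g c, c, hg c⟩ : Bb)) fun c c' h =>
        hθ (by rw [hg, hg, show g c = g c' from congrArg Subtype.val h])
    have hE4 : Nat.card E ^ 4 ≤ 2 ^ N := (Nat.pow_le_pow_left hcardE 4).trans (hsmall Bb hBb)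
    have hE2 : 2 ≤ Nat.card E := (Subgroup.one_lt_card_iff_ne_bot E).2 hE
    have hN4 : 4 ≤ N := (Nat.pow_le_pow_iff_right (le_refl 2)).1 ((Nat.pow_le_pow_left hE2 4).trans hE4)
    obtain ⟨c, hc0, hc1⟩ := (E.bot_or_exists_ne_one).resolve_left hE
    set cc : ↥E := ⟨c, hc0⟩
    obtain ⟨kb, r, hr, hr2, hord, hN⟩ := hpair (g cc) (hgsq cc)
      (fun h => hc1 (congrArg Subtype.val (hg1 cc h)))
    obtain ⟨k, rfl⟩ := QuotientGroup.mk_surjective kb
    have hci : c⁻¹ = c := inv_eq_of_mul_eq_one_right (hA c (hEAL hc0).1)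
    have hckc : c * (k : H) * c⁻¹ ∈ L := (mem_normalizer_iff.1 (hEAL hc0).2 k).1 k.2
    set w : ↥L := ⟨_, hckc⟩ * k⁻¹ with hwdef
    have hwb : (w : ↥L ⧸ center ↥L) =
        g cc * ((k : ↥L ⧸ center ↥L) * g cc * (k : ↥L ⧸ center ↥L)⁻¹) := by
      have e : ((⟨_, hckc⟩ : ↥L) : ↥L ⧸ center ↥L) = θ cc (k : ↥L ⧸ center ↥L) :=
        (H52.normAct_apply L (inclusion (hEAL.trans inf_le_right) cc) k).symm
      rw [hwdef, QuotientGroup.mk_mul, QuotientGroup.mk_inv, e, hg, MulAut.conj_apply,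
        inv_eq_of_mul_eq_one_right (hgsq cc)]
      group
    have hwA : (w : H) ∈ A ⊔ A.map (MulAut.conj (k : H)).toMonoidHom := by
      have h1 : c * ((k : H) * c * (k : H)⁻¹) ∈ A ⊔ A.map (MulAut.conj (k : H)).toMonoidHom :=
        mul_mem (mem_sup_left (hEAL hc0).1) (mem_sup_right ⟨c, (hEAL hc0).1, rfl⟩)
      rw [hwdef]
      simpa [hci, mul_assoc] using h1
    obtain ⟨l, e, hxe, hxZ, hxr⟩ := hlift w r hr (hwb ▸ hord)
    set x := w ^ l
    have hxe' : (x : H) ^ r ^ e = 1 := by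
      rw [← SubmonoidClass.coe_pow, hxe, OneMemClass.coe_one]
    let y : ↥A1 → H := fun t => (t : H) * (x : H) * (t : H)⁻¹
    obtain ⟨R0, K0, hR0, hRc, hRp, hK0, hpow, hidx⟩ := rank_lemma (e := e) hr Finset.univ y Z
      (fun t _ u _ => by
        by_cases htu : t = u
        · rw [htu]
        · exact hLt t u htu x x.2 x x.2)
      (fun t _ => by rw [conj_pow, hxe']; simp)
      (fun t _ h => hxZ ((hZself t x).1 h))
      (fun t _ => by
        rw [conj_pow]
        have := (hZself t (x ^ r)).2 hxr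
        rwa [SubmonoidClass.coe_pow] at this)
      (fun t _ u _ htu => hZoff t u htu x x.2)
    refine ⟨B, (k : H), r, N, 2 ^ m, R0, K0, inf_le_left, hBL k k.2, hr, hr2, hN, hRc, hRp,
      ?_, hK0, hpow, by omega, Nat.one_le_two_pow, ?_, ?_⟩
    · rw [hR0, closure_le]
      rintro _ ⟨t, -, rfl⟩
      have hx' : (x : H) ∈ A ⊔ A.map (MulAut.conj (k : H)).toMonoidHom := by
        rw [SubmonoidClass.coe_pow]; exact pow_mem hwA l
      exact mul_mem (mul_mem (mem_sup_left (hA1A t.2)) hx') (mem_sup_left (inv_mem (hA1A t.2)))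
    · refine le_trans (le_of_eq ?_) hidx
      congr 1
      rw [Finset.card_univ, ← Nat.card_eq_fintype_card, hm]
    · rw [hb, mul_pow, hm, ← pow_mul]
      refine lt_of_le_of_lt (Nat.mul_le_mul_right _ hE4) ?_
      rw [← pow_add]
      refine lt_of_le_of_lt (Nat.pow_le_pow_right (by norm_num) ?_)
        (lt_mul_of_one_lt_left (Nat.two_pow_pos _) (by norm_num))
      have h2m : m + 1 ≤ 2 ^ m := Nat.lt_two_pow_self
      have h2 : 4 * (2 ^ m - 1) ≤ N * (2 ^ m - 1) := Nat.mul_le_mul_right _ hN4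
      have h5 : N * (2 ^ m - 1) + N = N * 2 ^ m := by
        rw [← Nat.mul_succ]; congr 1; omega
      omega

/-- The selection. -/
theorem hasPair (hO : Cfsg.pCore 2 H = ⊥) (h3 : ¬ Cfsg.Involves (Equiv.Perm (Fin 3)) H)
    (hK : Cfsg.IsCompositionKGroupWith Cfsg.IsSuzukiOrPSL2OddPowerThree H)
    {A : Subgroup H} (hA : ∀ a ∈ A, a * a = 1) (hA1 : A ≠ ⊥) : HasPair A := by
  by_cases hAF : A ≤ centralizer (Cfsg.fittingSubgroup H : Set H)
  · exact hasPair_component hO h3 hK hA hA1 hAF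
  · exact hasPair_fitting hO h3 hA hAF

end Cfsg.Agent.H72.EG
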