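import Cfsg.Agent.H72.EG.Composition
import Cfsg.Agent.H72.EG.EGroup
import Cfsg.Agent.H72.EG.Count
import Cfsg.Agent.H72.EG.Select
import Cfsg.Agent.H19.Cores
import Cfsg.Agent.H83.Involves
import Mathlib

/-!
A strong subgroup of a Sylow 2-subgroup lies in `O₂`.
-/

set_option autoImplicit false
set_option linter.style.haveILetI false
open scoped commutatorElement

namespace Cfsg.Agent.H72.EG

open Subgroup

universe u

variable {G : Type u} [Group G] [Finite G]

/-- The map `(D/D₀) × (E/E₀) → M/C₀` given by multiplication is onto. -/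
theorem relIndex_le_mul {M C0 D D0 E E0 : Subgroup G} (hDM : D ≤ M) (hEM : E ≤ M)
    (hD0 : D0 ≤ C0) (hE0 : E0 ≤ C0)
    (hcom : ∀ a ∈ D0, ∀ e ∈ E, a * e = e * a)
    (hcov : ∀ m ∈ M, ∃ d ∈ D, ∃ e ∈ E, ∃ c ∈ C0, m = d * e * c) :
    C0.relIndex M ≤ D0.relIndex D * E0.relIndex E := by
  let A := ↥D ⧸ D0.subgroupOf D
  let B := ↥E ⧸ E0.subgroupOf E
  let f : A × B → ↥M ⧸ C0.subgroupOf M := fun p =>
    QuotientGroup.mk ⟨((Quotient.out p.1 : ↥D) : G) * ((Quotient.out p.2 : ↥E) : G),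
      M.mul_mem (hDM (Quotient.out p.1).2) (hEM (Quotient.out p.2).2)⟩
  have hf : Function.Surjective f := by
    intro z
    obtain ⟨⟨m, hm⟩, rfl⟩ := QuotientGroup.mk_surjective z
    obtain ⟨d, hd, e, he, c, hc, rfl⟩ := hcov m hm
    refine ⟨(QuotientGroup.mk ⟨d, hd⟩, QuotientGroup.mk ⟨e, he⟩), QuotientGroup.eq.2 ?_⟩
    obtain ⟨⟨a, ha⟩, h1⟩ := QuotientGroup.mk_out_eq_mul (D0.subgroupOf D) ⟨d, hd⟩
    obtain ⟨⟨b, hb⟩, h2⟩ := QuotientGroup.mk_out_eq_mul (E0.subgroupOf E) ⟨e, he⟩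
    rw [mem_subgroupOf] at ha hb ⊢
    simp only [Subgroup.coe_mul, Subgroup.coe_inv]
    rw [h1, h2]
    simp only [Subgroup.coe_mul]
    have h3 : (d * (a : G) * (e * (b : G)))⁻¹ * (d * e * c) = (b : G)⁻¹ * (a : G)⁻¹ * c := by
      rw [show d * (a : G) * (e * (b : G)) = d * ((a : G) * e) * b by group, hcom _ ha _ he]
      group
    rw [h3]
    exact mul_mem (mul_mem (inv_mem (hE0 hb)) (inv_mem (hD0 ha))) hc
  have h := Nat.card_le_card_of_surjective f hf
  rwa [Nat.card_prod] at h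

omit [Finite G] in
theorem le_normalizer_sup {A X Y : Subgroup G} (hX : A ≤ normalizer (X : Set G))
    (hY : A ≤ normalizer (Y : Set G)) : A ≤ normalizer ((X ⊔ Y : Subgroup G) : Set G) := by
  intro a ha
  refine mem_normalizer_iff_map_conj_eq.2 ?_
  rw [Subgroup.map_sup, mem_normalizer_iff_map_conj_eq.1 (hX ha), mem_normalizer_iff_map_conj_eq.1 (hY ha)]

theorem sq_mul_lt_aux {β i i' N d b q q' : ℕ} (hb : b = 2 ^ β) (hq : q = 2 ^ i) (hq' : q' = 2 ^ i')
    (hge : q' ≤ q) (hN : 1 ≤ N) (hd : 1 ≤ d) (hbig : 2 ^ (N * d) ≤ q * q')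
    (hsmall : b ^ 4 < 4 * 2 ^ (N * d)) (hstrong : 2 ≤ q → q ^ 3 < (b * q') ^ 2) : False := by
  subst hb hq hq'
  rw [← pow_add] at hbig
  have h1 : N * d ≤ i + i' := (Nat.pow_le_pow_iff_right (le_refl 2)).1 hbig
  have h2 : i' ≤ i := (Nat.pow_le_pow_iff_right (le_refl 2)).1 hge
  have h3 : β * 4 < 2 + N * d := by
    rw [← pow_mul, show 4 * 2 ^ (N * d) = 2 ^ (2 + N * d) by rw [pow_add]; norm_num] at hsmall
    exact (Nat.pow_lt_pow_iff_right (by norm_num)).1 hsmall
  have hNd : 1 ≤ N * d := Nat.mul_pos hN hd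
  have h4 := hstrong (Nat.le_self_pow (by omega) 2)
  rw [← pow_add, ← pow_mul, ← pow_mul] at h4
  have h5 := (Nat.pow_lt_pow_iff_right (le_refl 2)).1 h4
  omega

/-- A strong subgroup of a Sylow 2-subgroup lies in `O₂`. -/
theorem strong_le_pCore (hchar : centralizer (Cfsg.pCore 2 G : Set G) ≤ Cfsg.pCore 2 G)
    (h4 : ¬ Cfsg.Involves (Equiv.Perm (Fin 4)) G) (hK : CompK G) (S : Sylow 2 G) {V : Subgroup G}
    (hV : Strong (S : Subgroup G) V) : V ≤ Cfsg.pCore 2 G := by
  haveI := H19.pCore_normal 2 G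
  set Q := Cfsg.pCore 2 G with hQdef
  have hQS : Q ≤ (S : Subgroup G) := H19.pCore_le_sylow S
  have hQp : IsPGroup 2 Q := H19.pCore_isPGroup 2
  let π : G →* G ⧸ Q := QuotientGroup.mk' Q
  have hπ : Function.Surjective π := QuotientGroup.mk'_surjective Q
  have hker : π.ker = Q := QuotientGroup.ker_mk' Q
  have hmemQ : ∀ z, π z = 1 → z ∈ Q := fun z h => hker.le (MonoidHom.mem_ker.2 h)
  by_contra hVQ
  set A := V.map π with hAdef
  have hA1 : A ≠ ⊥ := fun h => hVQ fun v hv => hmemQ v (mem_bot.1 (h ▸ ⟨v, hv, rfl⟩))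
  have hA2 : ∀ a ∈ A, a * a = 1 := by
    rintro _ ⟨v, hv, rfl⟩
    rw [← map_mul, H83.mul_self_of_elementary hV.2.2.1 hv, map_one]
  have h3 : ¬ Cfsg.Involves (Equiv.Perm (Fin 3)) (G ⧸ Q) := fun h =>
    H83.not_involves_s3_of_char_two hchar h4 (H83.involves_of_quotient h)
  obtain ⟨B, gb, r, N, d, R0, K0, hBA, hgB, hr, hr2, hN, hR0c, hR0p, hR0le, hK0, hpow, hN1, hd, hidx,
    hineq⟩ := hasPair (H19.pCore_quotient_pCore (G := G) 2) h3 (compK_of_surjective hK π hπ) hA2 hA1
  haveI : Fact r.Prime := ⟨hr⟩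
  obtain ⟨g, rfl⟩ := hπ gb
  set M := B.comap π with hMdef
  have hQM : Q ≤ M := fun z hz => by
    rw [hMdef, mem_comap, MonoidHom.mem_ker.1 (hker.ge hz)]; exact one_mem _
  have hMS : M ≤ (S : Subgroup G) := by
    refine (comap_mono hBA).trans ?_
    rw [hAdef, comap_map_eq, hker]
    exact sup_le hV.1 hQS
  have hM2 : IsPGroup 2 M := S.2.to_le hMS
  have hnormM : ∀ x : G, (∀ c ∈ B, π x * c = c * π x) → x ∈ normalizer (M : Set G) := by
    intro x hx
    refine mem_normalizer_iff.2 fun z => ?_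
    rw [hMdef, mem_comap, mem_comap, map_mul, map_mul, map_inv]
    constructor
    · intro hz; rwa [hx _ hz, mul_inv_cancel_right]
    · intro hz
      have h := hx _ hz
      have : π z = π x * π z * (π x)⁻¹ := by
        have e : π x * (π x * π z * (π x)⁻¹) = π x * π z * (π x)⁻¹ * π x := h
        rw [inv_mul_cancel_right] at e
        exact (mul_left_cancel e).symm
      rwa [this]
  have hVnM : V ≤ normalizer (M : Set G) := fun v hv => hnormM v fun c hc =>
    H34.Suz.el_comm hA2 ⟨v, hv, rfl⟩ (hBA hc)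
  have hgnM : g ∈ normalizer (M : Set G) := hnormM g hgB
  let cg : G →* G := (MulAut.conj g).toMonoidHom
  have hcg : Function.Injective cg := (MulAut.conj g).injective
  have hcgapp : ∀ z, cg z = g * z * g⁻¹ := fun _ => rfl
  have hgM : M.map cg = M := mem_normalizer_iff_map_conj_eq.1 hgnM
  set V' := V.map cg with hV'def
  set D := V ⊓ M with hDdef
  set D' := V' ⊓ M with hD'def
  have hDD' : D.map cg = D' := by rw [hDdef, map_inf _ _ _ hcg, hgM]
  have hV'nM : V' ≤ normalizer (M : Set G) := by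
    rintro _ ⟨v, hv, rfl⟩
    rw [hcgapp]
    exact mul_mem (mul_mem hgnM (hVnM hv)) (inv_mem hgnM)
  have hMnV : M ≤ normalizer (V : Set G) := hMS.trans hV.2.1
  have hMnV' : M ≤ normalizer (V' : Set G) := by
    rw [← hgM]
    exact (Subgroup.map_mono hMnV).trans (V.le_normalizer_map cg)
  have hVcomm : ∀ a ∈ V, ∀ c ∈ V, a * c = c * a := fun a ha c hc =>
    H83.comm_of_elementary hV.2.2.1 ha hc
  have hV'comm : ∀ a ∈ V', ∀ c ∈ V', a * c = c * a := by
    rintro _ ⟨a, ha, rfl⟩ _ ⟨c, hc, rfl⟩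
    rw [← map_mul, ← map_mul, hVcomm a ha c hc]
  -- commutators of `M` with `V`, `V'`
  have hcomD : ∀ v ∈ V, ∀ m ∈ M, v * m * v⁻¹ * m⁻¹ ∈ D := fun v hv m hm =>
    ⟨by
      have := mul_mem hv ((mem_normalizer_iff.1 (hMnV hm) v⁻¹).1 (inv_mem hv))
      simpa [mul_assoc] using this,
    M.mul_mem ((mem_normalizer_iff.1 (hVnM hv) m).1 hm) (M.inv_mem hm)⟩
  have hcomD' : ∀ w ∈ V', ∀ m ∈ M, w * m * w⁻¹ * m⁻¹ ∈ D' := fun w hw m hm =>
    ⟨by
      have := mul_mem hw ((mem_normalizer_iff.1 (hMnV' hm) w⁻¹).1 (inv_mem hw))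
      simpa [mul_assoc] using this,
    M.mul_mem ((mem_normalizer_iff.1 (hV'nM hw) m).1 hm) (M.inv_mem hm)⟩
  have hMnD : M ≤ normalizer (D : Set G) := H20.le_normalizer_inf hMnV le_normalizer
  have hMnD' : M ≤ normalizer (D' : Set G) := H20.le_normalizer_inf hMnV' le_normalizer
  set N0 := D ⊔ D' with hN0def
  have hMnN : M ≤ normalizer (N0 : Set G) := le_normalizer_sup hMnD hMnD'
  have hN0M : N0 ≤ M := sup_le inf_le_right inf_le_right
  have hstab : ∀ X : Subgroup G, (∀ x ∈ X, ∀ z ∈ D, x * z * x⁻¹ ∈ N0) →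
      (∀ x ∈ X, ∀ z ∈ D', x * z * x⁻¹ ∈ N0) → X ≤ normalizer (N0 : Set G) := by
    intro X h1 h2 x hx
    have key : ∀ y ∈ X, ∀ z ∈ N0, y * z * y⁻¹ ∈ N0 := by
      intro y hy z hz
      have hle : N0 ≤ N0.comap (MulAut.conj y).toMonoidHom :=
        sup_le (fun a ha => h1 y hy a ha) (fun a ha => h2 y hy a ha)
      exact hle hz
    exact mem_normalizer_iff.2 fun z => ⟨key x hx z, fun hz => by
      simpa [mul_assoc] using key x⁻¹ (inv_mem hx) _ hz⟩
  have hVnN : V ≤ normalizer (N0 : Set G) := by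
    refine hstab V (fun x hx z hz => ?_) fun x hx z hz => ?_
    · rw [hVcomm x hx z hz.1, mul_inv_cancel_right]; exact mem_sup_left hz
    · have h := mul_mem (mem_sup_left (T := D') (hcomD x hx z hz.2)) (mem_sup_right (S := D) hz)
      simpa [mul_assoc] using h
  have hV'nN : V' ≤ normalizer (N0 : Set G) := by
    refine hstab V' (fun x hx z hz => ?_) fun x hx z hz => ?_
    · have h := mul_mem (mem_sup_right (S := D) (hcomD' x hx z hz.2)) (mem_sup_left (T := D') hz)
      simpa [mul_assoc] using h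
    · rw [hV'comm x hx z hz.1, mul_inv_cancel_right]; exact mem_sup_right hz
  set G1 := V ⊔ V' with hG1def
  have hG1M : G1 ≤ normalizer (M : Set G) := sup_le hVnM hV'nM
  have hG1N : G1 ≤ normalizer (N0 : Set G) := sup_le hVnN hV'nN
  have hG1triv : ∀ x ∈ G1, ∀ m ∈ M, x * m * x⁻¹ * m⁻¹ ∈ N0 := by
    intro x hx
    rw [hG1def, sup_eq_closure] at hx
    induction hx using closure_induction with
    | mem y hy =>
      intro m hm
      rcases hy with hy | hy
      · exact mem_sup_left (hcomD y hy m hm)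
      · exact mem_sup_right (hcomD' y hy m hm)
    | one => intro m _; simp
    | mul y z hy hz ihy ihz =>
      intro m hm
      have hy' : y ∈ normalizer (N0 : Set G) := hG1N (by rw [hG1def, sup_eq_closure]; exact hy)
      have := mul_mem ((mem_normalizer_iff.1 hy' _).1 (ihz m hm)) (ihy m hm)
      simpa [mul_assoc] using this
    | inv y hy ih =>
      intro m hm
      have hy' : y⁻¹ ∈ normalizer (N0 : Set G) :=
        inv_mem (hG1N (by rw [hG1def, sup_eq_closure]; exact hy))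
      have := (mem_normalizer_iff.1 hy' _).1 (inv_mem (ih m hm))
      simpa [mul_assoc] using this
  -- the `r`-group above `R0`
  have hG1map : G1.map π = A ⊔ A.map (MulAut.conj (π g)).toMonoidHom := by
    rw [hG1def, Subgroup.map_sup, hV'def, hAdef, map_map, map_map]
    congr 2
  set P := G1 ⊓ R0.comap π with hPdef
  let φ : ↥P →* ↥R0 :=
    { toFun := fun z => ⟨π z, z.2.2⟩
      map_one' := Subtype.ext (map_one π)
      map_mul' := fun a c => Subtype.ext (map_mul π _ _) }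
  have hφ : Function.Surjective φ := by
    rintro ⟨z, hz⟩
    obtain ⟨y, hy, rfl⟩ : z ∈ G1.map π := by rw [hG1map]; exact hR0le hz
    exact ⟨⟨y, hy, hz⟩, rfl⟩
  let T : Sylow r ↥P := default
  have hTtop : (T : Subgroup ↥P).map φ = ⊤ := by
    rw [← index_eq_one]
    have h1 : ¬ r ∣ ((T : Subgroup ↥P).map φ).index :=
      fun h => T.not_dvd_index (h.trans (index_map_dvd _ hφ))
    obtain ⟨i, hi⟩ := hR0p.exists_card_eq
    obtain ⟨j, -, hj⟩ := (Nat.dvd_prime_pow hr).1 (hi ▸ index_dvd_card _)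
    rcases j with _ | j
    · rwa [pow_zero] at hj
    · exact absurd (hj ▸ dvd_pow_self r j.succ_ne_zero) h1
  set Rh := (T : Subgroup ↥P).map P.subtype with hRhdef
  have hRhP : Rh ≤ P := map_subtype_le _
  have hRhp : IsPGroup r Rh := T.2.map _
  have hRhmap : Rh.map π = R0 := by
    refine le_antisymm (map_le_iff_le_comap.2 (hRhP.trans inf_le_right)) fun z hz => ?_
    obtain ⟨t, ht, hte⟩ : (⟨z, hz⟩ : ↥R0) ∈ (T : Subgroup ↥P).map φ := by rw [hTtop]; trivial
    exact ⟨t, ⟨t, ht, rfl⟩, congrArg Subtype.val hte⟩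
  have hRhQ : Rh ⊓ Q = ⊥ := (IsPGroup.disjoint_of_ne r 2 hr2 Rh Q hRhp hQp).eq_bot
  have hRhG1 : Rh ≤ G1 := hRhP.trans inf_le_left
  have hRhinj : ∀ x ∈ Rh, π x = 1 → x = 1 := fun x hx h =>
    mem_bot.1 (hRhQ.le ⟨hx, hmemQ x h⟩)
  have hRhc : IsMulCommutative Rh := by
    refine ⟨⟨fun x y => Subtype.ext ?_⟩⟩
    show (x : G) * y = y * x
    have h := hRhinj ((x : G) * y * ((y : G) * x)⁻¹) (mul_mem (mul_mem x.2 y.2) (inv_mem (mul_mem y.2 x.2))) (by
      rw [map_mul, map_inv, map_mul, map_mul, mul_inv_eq_one]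
      exact setLike_mul_comm (s := R0) (hRhmap ▸ ⟨x, x.2, rfl⟩) (hRhmap ▸ ⟨y, y.2, rfl⟩))
    exact mul_inv_eq_one.1 h
  set C0 := M ⊓ centralizer (Rh : Set G) with hC0def
  have hcount := count hr hr2 hN hM2 d Rh (Rh ⊓ K0.comap π) hRhc hRhp (hRhG1.trans hG1M) inf_le_left
    (fun x hx => by
      have h := hchar (centralizer_le hQM hx.2)
      rw [mem_bot.1 (hRhQ.le ⟨hx.1, h⟩)]
      exact one_mem _)
    (fun x hx => ⟨pow_mem hx r, show π (x ^ r) ∈ K0 by
      rw [map_pow]; exact hpow _ (hRhmap ▸ ⟨x, hx, rfl⟩)⟩)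
    (by rw [inf_relIndex_left, relIndex_comap, hRhmap]; exact hidx)
  -- `M = N C_M(Rh)`
  have hcov : ∀ m ∈ M, ∃ a ∈ D, ∃ e ∈ D', ∃ c ∈ C0, m = a * e * c := by
    intro m hm
    obtain ⟨c, hc, hmc⟩ := H20.exists_fixed_mem_coset (A := Rh) (K := M) (N := N0)
      (IsPGroup.coprime_card_of_ne r 2 hr2 _ _ hRhp hM2) (Or.inl (H20.isSolvable_of_isPGroup hRhp)) hN0M
      (hRhG1.trans hG1N) hm (fun a ha => by
        have h := (mem_normalizer_iff.1 (hMnN (inv_mem hm)) _).1 (hG1triv a (hRhG1 ha) m hm)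
        simpa [mul_assoc] using h)
    have hn : m * c⁻¹ ∈ N0 := by
      have h := (mem_normalizer_iff.1 (hMnN hm) _).1 (inv_mem hmc)
      simpa [mul_assoc] using h
    rw [hN0def, ← SetLike.mem_coe, coe_mul_of_right_le_normalizer_left _ _
      ((inf_le_right : D' ≤ M).trans hMnD), Set.mem_mul] at hn
    obtain ⟨a, ha, e, he, hae⟩ := hn
    exact ⟨a, ha, e, he, c, hc, by rw [hae]; group⟩
  set D0 := D ⊓ centralizer (V' : Set G) with hD0def
  set D0' := D' ⊓ centralizer (V : Set G) with hD0'def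
  have hD0C : D0 ≤ C0 := by
    refine le_inf (inf_le_left.trans inf_le_right) ?_
    refine le_centralizer_iff.1 (hRhG1.trans (sup_le ?_ ?_))
    · exact fun v hv => mem_centralizer_iff.2 fun z hz => hVcomm z hz.1.1 v hv
    · exact le_centralizer_iff.1 inf_le_right
  have hD0'C : D0' ≤ C0 := by
    refine le_inf (inf_le_left.trans inf_le_right) ?_
    refine le_centralizer_iff.1 (hRhG1.trans (sup_le ?_ ?_))
    · exact le_centralizer_iff.1 inf_le_right
    · exact fun v hv => mem_centralizer_iff.2 fun z hz => hV'comm z hz.1.1 v hv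
  have hqq := relIndex_le_mul (M := M) (C0 := C0) (D := D) (D0 := D0) (E := D') (E0 := D0')
    inf_le_right inf_le_right hD0C hD0'C
    (fun a ha e he => (mem_centralizer_iff.1 ha.2 e he.1).symm) hcov
  have hbig : 2 ^ (N * d) ≤ D0.relIndex D * D0'.relIndex D' := by
    refine le_trans ?_ hqq
    have h := card_inf_mul_relIndex M (centralizer (Rh : Set G))
    rw [← hC0def] at h
    rw [← h, mul_comm (Nat.card ↥C0)] at hcount
    exact Nat.le_of_mul_le_mul_right hcount Nat.card_pos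
  -- the index of `D` in `V`
  have hb : D.relIndex V = B.relIndex A := by
    rw [hDdef, inf_relIndex_left, hMdef, relIndex_comap]
  have hb' : D'.relIndex V' = B.relIndex A := by
    rw [← hDD', hV'def, relIndex_map_map_of_injective _ _ hcg, hb]
  have hV2 : IsPGroup 2 V := S.2.to_le hV.1
  have hV'2 : IsPGroup 2 V' := hV2.map _
  have hpow2 : ∀ X Y : Subgroup G, IsPGroup 2 Y → ∃ i, X.relIndex Y = 2 ^ i := by
    intro X Y hY
    obtain ⟨n, hn⟩ := hY.exists_card_eq
    obtain ⟨i, -, hi⟩ := (Nat.dvd_prime_pow Nat.prime_two).1 (hn ▸ X.relIndex_dvd_card Y)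
    exact ⟨i, hi⟩
  obtain ⟨β, hβ⟩ := hpow2 D V hV2
  obtain ⟨i, hi⟩ := hpow2 D0 D (hV2.to_le inf_le_left)
  obtain ⟨i', hi'⟩ := hpow2 D0' D' (hV'2.to_le inf_le_left)
  -- strongness against `D'` and against `D`
  have hVel := hV.2.2.1
  have hs1 : 2 ≤ D0'.relIndex D' → D0'.relIndex D' ^ 3 < (D.relIndex V * D0.relIndex D) ^ 2 := by
    intro h2
    have hne : ¬ D' ≤ centralizer (V : Set G) := fun h => by
      rw [hD0'def, inf_eq_left.2 h, relIndex_self] at h2
      omega
    have h := hV.2.2.2 D' (inf_le_right.trans hMS)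
      (le_trans (le_of_eq (commutator_eq_bot_iff_le_centralizer.2 fun a ha =>
        mem_centralizer_iff.2 fun c hc => hV'comm c hc.1 a ha.1)) bot_le)
      (fun a ha => by
        obtain ⟨v, hv, rfl⟩ := ha.1
        rw [← map_pow, hVel.2 v hv, map_one]; exact one_mem _) hne
    refine h.trans_le (Nat.pow_le_pow_left ?_ 2)
    calc (V ⊓ centralizer (D' : Set G)).relIndex V ≤ D0.relIndex V :=
          relIndex_le_of_le_left (fun z hz => ⟨hz.1.1, centralizer_le inf_le_left hz.2⟩)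
            Subgroup.index_ne_zero_of_finite
      _ = D.relIndex V * D0.relIndex D := by
          rw [mul_comm, relIndex_mul_relIndex D0 D V inf_le_left inf_le_left]
  have hs2 : 2 ≤ D0.relIndex D → D0.relIndex D ^ 3 < (D.relIndex V * D0'.relIndex D') ^ 2 := by
    intro h2
    have hne : ¬ D ≤ centralizer (V' : Set G) := fun h => by
      rw [hD0def, inf_eq_left.2 h, relIndex_self] at h2
      omega
    set R := D.comap cg with hRdef
    have hR : R.map cg = D := map_comap_eq_self fun z _ => ⟨g⁻¹ * z * g, by rw [hcgapp]; group⟩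
    have hRM : R ≤ M := by
      rw [← Subgroup.map_le_map_iff_of_injective hcg, hR, hgM]; exact inf_le_right
    have h := hV.2.2.2 R (hRM.trans hMS) ?_ ?_ ?_
    · rw [← relIndex_map_map_of_injective _ _ hcg, map_centralizer_inf hcg,
        ← relIndex_map_map_of_injective (V ⊓ _) V hcg, map_centralizer_inf hcg, hR, ← hV'def] at h
      refine h.trans_le (Nat.pow_le_pow_left ?_ 2)
      calc (V' ⊓ centralizer (D : Set G)).relIndex V' ≤ D0'.relIndex V' :=
            relIndex_le_of_le_left (fun z hz => ⟨hz.1.1, centralizer_le inf_le_left hz.2⟩)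
              Subgroup.index_ne_zero_of_finite
        _ = D.relIndex V * D0'.relIndex D' := by
            rw [hb, ← hb', mul_comm, relIndex_mul_relIndex D0' D' V' inf_le_left inf_le_left]
    · rw [← map_le_centralizer_iff hcg, map_commutator, hR]
      exact le_trans (le_of_eq (commutator_eq_bot_iff_le_centralizer.2 fun a ha =>
        mem_centralizer_iff.2 fun c hc => hVcomm c hc.1 a ha.1)) bot_le
    · intro a ha
      have h1 : cg (a ^ 2) = 1 := by rw [map_pow]; exact hVel.2 _ (mem_comap.1 ha).1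
      rw [hcg (h1.trans (map_one cg).symm)]
      exact one_mem _
    · intro h
      exact hne (by rw [← hR]; exact (map_le_centralizer_iff hcg _ _).2 h)
  rw [← hb] at hineq
  rcases le_total (D0'.relIndex D') (D0.relIndex D) with hle | hle
  · exact sq_mul_lt_aux hβ hi hi' hle hN1 hd hbig hineq hs2
  · exact sq_mul_lt_aux hβ hi' hi hle hN1 hd (hbig.trans_eq (mul_comm _ _)) hineq hs1

end Cfsg.Agent.H72.EG
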