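import Cfsg.Agent.H72.EG.Composition
import Cfsg.Agent.H72.EG.EGroup
import Cfsg.Agent.H19.Cores
import Cfsg.Agent.H83.Involves
import Cfsg.Agent.H20.External
import Mathlib

/-!
Passing strong subgroups, Thompson subgroups and the hypotheses to subgroups of the group.
-/

set_option autoImplicit false
set_option linter.style.haveILetI false
open scoped commutatorElement

namespace Cfsg.Agent.H72.EG

open Subgroup
open Cfsg.Agent.H83 (maxElem)

universe u

variable {G : Type u} [Group G]

theorem Strong.mono {S T V : Subgroup G} (h : Strong S V) (hVT : V ≤ T) (hTS : T ≤ S) : Strong T V :=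
  ⟨hVT, hTS.trans h.2.1, h.2.2.1, fun R hR => h.2.2.2 R (hR.trans hTS)⟩

theorem strong_map_iff {H : Type*} [Group H] {f : H →* G} (hf : Function.Injective f)
    {T V : Subgroup H} : Strong (T.map f) (V.map f) ↔ Strong T V := by
  have hiff : ∀ (Y : Subgroup H) z, f z ∈ Y.map f ↔ z ∈ Y := fun Y z =>
    ⟨fun ⟨w, hw, e⟩ => hf e ▸ hw, fun hz => ⟨z, hz, rfl⟩⟩
  have hnorm : T.map f ≤ normalizer ((V.map f : Subgroup G) : Set G) ↔ T ≤ normalizer (V : Set H) := by
    constructor
    · intro h x hx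
      refine mem_normalizer_iff.2 fun y => ?_
      rw [← hiff V y, ← hiff V, map_mul, map_mul, map_inv]
      exact mem_normalizer_iff.1 (h ⟨x, hx, rfl⟩) (f y)
    · intro h
      exact (Subgroup.map_mono h).trans (V.le_normalizer_map f)
  have hsq : ∀ R : Subgroup H, (∀ r ∈ R.map f, r ^ 2 ∈ centralizer ((V.map f : Subgroup G) : Set G)) ↔
      ∀ r ∈ R, r ^ 2 ∈ centralizer (V : Set H) := by
    intro R
    constructor
    · intro h r hr
      refine mem_centralizer_iff.2 fun v hv => hf ?_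
      rw [map_mul, map_mul, map_pow]
      exact mem_centralizer_iff.1 (h _ ⟨r, hr, rfl⟩) _ ⟨v, hv, rfl⟩
    · rintro h _ ⟨r, hr, rfl⟩
      refine mem_centralizer_iff.2 ?_
      rintro _ ⟨v, hv, rfl⟩
      rw [← map_pow, ← map_mul, ← map_mul, mem_centralizer_iff.1 (h r hr) v hv]
  have hel : Cfsg.IsElementaryAbelian 2 (V.map f) ↔ Cfsg.IsElementaryAbelian 2 V := by
    constructor
    · intro h
      refine ⟨⟨⟨fun a b => Subtype.ext (hf ?_)⟩⟩, fun a ha => hf ?_⟩
      · rw [Subgroup.coe_mul, Subgroup.coe_mul, map_mul, map_mul]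
        exact congrArg Subtype.val (h.1.is_comm.comm ⟨f a, ⟨a, a.2, rfl⟩⟩ ⟨f b, ⟨b, b.2, rfl⟩⟩)
      · rw [map_pow, map_one]; exact h.2 _ ⟨a, ha, rfl⟩
    · exact fun h => H34.isElementaryAbelian_map h f
  unfold Strong
  rw [Subgroup.map_le_map_iff_of_injective hf, hnorm, hel]
  refine and_congr_right fun _ => and_congr_right fun _ => and_congr_right fun _ => ?_
  constructor
  · intro h R hR h1 h2 h3
    have h4 := h (R.map f) (Subgroup.map_mono hR)
      (by rw [← map_commutator]; exact (map_le_centralizer_iff hf _ _).2 h1) ((hsq R).2 h2)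
      (fun hc => h3 ((map_le_centralizer_iff hf _ _).1 hc))
    rwa [← map_centralizer_inf hf, ← map_centralizer_inf hf, relIndex_map_map_of_injective _ _ hf,
      relIndex_map_map_of_injective _ _ hf] at h4
  · intro h R' hR' h1 h2 h3
    obtain ⟨R, rfl⟩ : ∃ R : Subgroup H, R' = R.map f :=
      ⟨R'.comap f, (map_comap_eq_self (hR'.trans (map_le_range f T))).symm⟩
    rw [← map_centralizer_inf hf, ← map_centralizer_inf hf, relIndex_map_map_of_injective _ _ hf,
      relIndex_map_map_of_injective _ _ hf]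
    exact h R ((Subgroup.map_le_map_iff_of_injective hf).1 hR')
      ((map_le_centralizer_iff hf _ _).1 (by rw [map_commutator]; exact h1)) ((hsq R).1 h2)
      (fun hc => h3 ((map_le_centralizer_iff hf _ _).2 hc))

/-- The Thompson subgroup does not depend on the ambient group. -/
theorem map_maxElem {H : Type*} [Group H] {f : H →* G} (hf : Function.Injective f) (S : Subgroup H) :
    (Cfsg.thompsonSubgroupOf 2 S).map f = Cfsg.thompsonSubgroupOf 2 (S.map f) := by
  rw [thompson_eq, thompson_eq]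
  apply le_antisymm
  · rw [map_le_iff_le_comap]
    refine sSup_le fun A hA => ?_
    rw [← map_le_iff_le_comap]
    refine le_sSup ⟨Subgroup.map_mono hA.1, H34.isElementaryAbelian_map hA.2.1 f, fun B hB hB' => ?_⟩
    obtain ⟨B, rfl⟩ : ∃ B0 : Subgroup H, B = B0.map f :=
      ⟨B.comap f, (map_comap_eq_self (hB.trans (map_le_range f S))).symm⟩
    rw [card_map_of_injective hf, card_map_of_injective hf]
    refine hA.2.2 B ((Subgroup.map_le_map_iff_of_injective hf).1 hB) ⟨⟨⟨fun a b => ?_⟩⟩, fun a ha => hf ?_⟩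
    · refine Subtype.ext (hf ?_)
      rw [Subgroup.coe_mul, Subgroup.coe_mul, map_mul, map_mul]
      exact congrArg Subtype.val (hB'.1.is_comm.comm ⟨f a, ⟨a, a.2, rfl⟩⟩ ⟨f b, ⟨b, b.2, rfl⟩⟩)
    · rw [map_pow, map_one]; exact hB'.2 _ ⟨a, ha, rfl⟩
  · refine sSup_le fun A hA => ?_
    obtain ⟨A, rfl⟩ : ∃ A0 : Subgroup H, A = A0.map f :=
      ⟨A.comap f, (map_comap_eq_self (hA.1.trans (map_le_range f S))).symm⟩
    refine Subgroup.map_mono (le_sSup ⟨(Subgroup.map_le_map_iff_of_injective hf).1 hA.1,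
      ⟨⟨⟨fun a b => ?_⟩⟩, fun a ha => hf ?_⟩, fun B hB hB' => ?_⟩)
    · refine Subtype.ext (hf ?_)
      rw [Subgroup.coe_mul, Subgroup.coe_mul, map_mul, map_mul]
      exact congrArg Subtype.val (hA.2.1.1.is_comm.comm ⟨f a, ⟨a, a.2, rfl⟩⟩ ⟨f b, ⟨b, b.2, rfl⟩⟩)
    · rw [map_pow, map_one]; exact hA.2.1.2 _ ⟨a, ha, rfl⟩
    · have h := hA.2.2 (B.map f) (Subgroup.map_mono hB) (H34.isElementaryAbelian_map hB' f)
      rwa [card_map_of_injective hf, card_map_of_injective hf] at h

variable [Finite G]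

/-- A subgroup containing `O₂` satisfies the characteristic 2 hypothesis. -/
theorem char_two_subgroup (hchar : centralizer (Cfsg.pCore 2 G : Set G) ≤ Cfsg.pCore 2 G)
    {H : Subgroup G} (hQH : Cfsg.pCore 2 G ≤ H) :
    centralizer (Cfsg.pCore 2 ↥H : Set ↥H) ≤ Cfsg.pCore 2 ↥H := by
  haveI := H19.pCore_normal 2 G
  have hsub : (Cfsg.pCore 2 G).subgroupOf H ≤ Cfsg.pCore 2 ↥H :=
    H19.le_pCore normal_subgroupOf ((H19.pCore_isPGroup 2).of_injective
      ((subgroupOfEquivOfLe hQH).toMonoidHom) (subgroupOfEquivOfLe hQH).injective)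
  intro x hx
  refine hsub (hchar (mem_centralizer_iff.2 fun q hq => ?_))
  exact congrArg Subtype.val (mem_centralizer_iff.1 hx ⟨q, hQH hq⟩ (hsub hq))

omit [Finite G] in
theorem involves_of_subgroup' {P : Type*} [Group P] {H : Subgroup G}
    (h : ¬ Cfsg.Involves P G) : ¬ Cfsg.Involves P ↥H := fun h' => h (H83.involves_of_subgroup h')

/-- A group with a normal 2-subgroup of odd index is solvable. -/
theorem isSolvable_of_normal_two {N : Subgroup G} [N.Normal] (hN : IsPGroup 2 N) (hodd : Odd N.index)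
    (hsolv : ∀ (X : Type u) [Group X] [Finite X], Odd (Nat.card X) → Group.IsSolvable X) :
    Group.IsSolvable G := by
  haveI : Fact (Nat.Prime 2) := ⟨Nat.prime_two⟩
  haveI : Group.IsSolvable N := H20.isSolvable_of_isPGroup hN
  haveI : Group.IsSolvable (G ⧸ N) := hsolv (G ⧸ N) (by rwa [← index_eq_card])
  exact Group.isSolvable_of_ker_le_range N.subtype (QuotientGroup.mk' N)
    (by rw [QuotientGroup.ker_mk', range_subtype])

end Cfsg.Agent.H72.EG
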