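import Cfsg.Agent.H72.EG.Sections
import Cfsg.Agent.H72.EG.Transfer
import Mathlib

/-!
Fixed points modulo a normal subgroup, and the bound for several strong subgroups at once.
-/

set_option autoImplicit false
set_option linter.style.haveILetI false

namespace Cfsg.Agent.H72.EG

open Subgroup

universe u

variable {G : Type u} [Group G]

/-- The elements of `X` fixed by `A` modulo `W`. -/
def fixMod (A X W : Subgroup G) [W.Normal] : Subgroup G :=
  X ⊓ (centralizer ((A.map (QuotientGroup.mk' W) : Subgroup (G ⧸ W)) : Set (G ⧸ W))).comap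
    (QuotientGroup.mk' W)

theorem commutator_mem_iff {W : Subgroup G} [W.Normal] {a x : G} :
    a * x * a⁻¹ * x⁻¹ ∈ W ↔ QuotientGroup.mk' W a * QuotientGroup.mk' W x =
      QuotientGroup.mk' W x * QuotientGroup.mk' W a := by
  rw [← QuotientGroup.eq_one_iff, ← QuotientGroup.mk'_apply, map_mul, map_mul, map_mul, map_inv, map_inv,
    mul_inv_eq_one, mul_inv_eq_iff_eq_mul]

theorem mem_fixMod {A X W : Subgroup G} [W.Normal] {x : G} :
    x ∈ fixMod A X W ↔ x ∈ X ∧ ∀ a ∈ A, a * x * a⁻¹ * x⁻¹ ∈ W := by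
  rw [fixMod, mem_inf, mem_comap, mem_centralizer_iff]
  refine and_congr_right fun _ => ⟨fun h a ha => commutator_mem_iff.2 (h _ ⟨a, ha, rfl⟩), ?_⟩
  rintro h _ ⟨a, ha, rfl⟩
  exact commutator_mem_iff.1 (h a ha)

theorem fixMod_le (A X W : Subgroup G) [W.Normal] : fixMod A X W ≤ X := inf_le_left

theorem fixMod_normal {A X W : Subgroup G} [W.Normal] (hA : A.Normal) (hX : X.Normal) :
    (fixMod A X W).Normal := by
  haveI := hA.map (QuotientGroup.mk' W) (QuotientGroup.mk'_surjective W)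
  haveI := hX
  unfold fixMod
  infer_instance

theorem le_secKer_iff {A X W : Subgroup G} [W.Normal] :
    A ≤ Cfsg.sectionKernel X W ↔ X ≤ fixMod A X W :=
  ⟨fun h _ hx => mem_fixMod.2 ⟨hx, fun _ ha => mem_secKer.1 (h ha) _ hx⟩,
    fun h _ ha => mem_secKer.2 fun _ hx => (mem_fixMod.1 (h hx)).2 _ ha⟩

theorem fixMod_mono {A A' X W : Subgroup G} [W.Normal] (h : A ≤ A') : fixMod A' X W ≤ fixMod A X W :=
  fun _ hx => mem_fixMod.2 ⟨(mem_fixMod.1 hx).1, fun a ha => (mem_fixMod.1 hx).2 a (h ha)⟩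

theorem fixMod_sup {A A' X W : Subgroup G} [W.Normal] :
    fixMod (A ⊔ A') X W = fixMod A X W ⊓ fixMod A' X W := by
  refine le_antisymm (le_inf (fixMod_mono le_sup_left) (fixMod_mono le_sup_right)) fun x hx => ?_
  obtain ⟨h1, h2⟩ := hx
  refine mem_fixMod.2 ⟨(mem_fixMod.1 h1).1, fun a ha => ?_⟩
  let T : Subgroup G := (centralizer ({QuotientGroup.mk' W x} : Set (G ⧸ W))).comap (QuotientGroup.mk' W)
  have hle : A ⊔ A' ≤ T := sup_le
    (fun a ha => mem_centralizer_singleton_iff.2 (commutator_mem_iff.1 ((mem_fixMod.1 h1).2 a ha)))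
    (fun a ha => mem_centralizer_singleton_iff.2 (commutator_mem_iff.1 ((mem_fixMod.1 h2).2 a ha)))
  exact commutator_mem_iff.2 (mem_centralizer_singleton_iff.1 (hle ha))

/-- Centralising `X` is being trivial on `X` modulo the trivial subgroup. -/
theorem le_secKer_bot_iff {A X : Subgroup G} :
    A ≤ Cfsg.sectionKernel X ⊥ ↔ A ≤ centralizer (X : Set G) := by
  constructor
  · intro h a ha
    refine mem_centralizer_iff.2 fun x hx => ?_
    have h1 := mem_secKer.1 (h ha) x hx
    rw [mem_bot, mul_inv_eq_one, mul_inv_eq_iff_eq_mul] at h1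
    exact h1.symm
  · intro h a ha
    refine mem_secKer.2 fun x hx => ?_
    rw [mem_bot, mul_inv_eq_one, mul_inv_eq_iff_eq_mul]
    exact (mem_centralizer_iff.1 (h ha) x hx).symm

variable [Finite G]

/-- An elementary abelian group generated over `W` by one element has `W` of index at most 2. -/
theorem relIndex_le_two {X W : Subgroup G} (hX : Cfsg.IsElementaryAbelian 2 X) (hWX : W ≤ X) {x : G}
    (hx : x ∈ X) (h : W ⊔ zpowers x = X) : W.relIndex X ≤ 2 := by
  have hxx := H83.mul_self_of_elementary hX hx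
  have hn : zpowers x ≤ normalizer (W : Set G) := (zpowers_le.2 hx).trans fun a ha =>
    mem_normalizer_iff.2 fun w => ⟨fun hw => by
      rwa [H83.comm_of_elementary hX ha (hWX hw), mul_inv_cancel_right], fun hw => by
      have hwX : w ∈ X := by simpa [mul_assoc] using mul_mem (mul_mem (inv_mem ha) (hWX hw)) ha
      rwa [H83.comm_of_elementary hX ha hwX, mul_inv_cancel_right] at hw⟩
  let f : Fin 2 × ↥W → ↥X := fun p => ⟨(p.2 : G) * x ^ (p.1 : ℕ), mul_mem (hWX p.2.2) (pow_mem hx _)⟩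
  have hf : Function.Surjective f := by
    rintro ⟨z, hz⟩
    have hz' : z ∈ W ⊔ zpowers x := h.ge hz
    rw [← SetLike.mem_coe, coe_mul_of_right_le_normalizer_left _ _ hn, Set.mem_mul] at hz'
    obtain ⟨u, hu, w, hw, rfl⟩ := hz'
    obtain ⟨m, rfl⟩ := mem_zpowers_iff.1 hw
    rcases Int.even_or_odd m with ⟨k, rfl⟩ | ⟨k, rfl⟩
    · exact ⟨(0, ⟨u, hu⟩), Subtype.ext (by
        show u * x ^ (0 : ℕ) = u * x ^ (k + k)
        rw [pow_zero, mul_one, ← two_mul, zpow_mul, zpow_two, hxx, one_zpow, mul_one])⟩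
    · exact ⟨(1, ⟨u, hu⟩), Subtype.ext (by
        show u * x ^ (1 : ℕ) = u * x ^ (2 * k + 1)
        rw [pow_one, zpow_add_one, zpow_mul, zpow_two, hxx, one_zpow, one_mul])⟩
  have hc := Nat.card_le_card_of_surjective f hf
  rw [Nat.card_prod, Nat.card_fin] at hc
  have h4 := relIndex_mul_relIndex (⊥ : Subgroup G) W X bot_le hWX
  rw [relIndex_bot_left, relIndex_bot_left] at h4
  rw [← h4, mul_comm 2] at hc
  exact Nat.le_of_mul_le_mul_left hc Nat.card_pos

/-- The strict inequality for several strong subgroups at once. -/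
theorem strong_seq_bound {ι : Sort*} (W : ι → Subgroup G) {T Y B : Subgroup G}
    (hW : ∀ i, Strong T (W i)) (hWY : ∀ i, W i ≤ Y) (hY : Y ≤ ⨆ i, W i) (hBT : B ≤ T)
    (hB : Cfsg.IsElementaryAbelian 2 B) (hBY : ¬ B ≤ centralizer (Y : Set G)) :
    (B ⊓ centralizer (Y : Set G)).relIndex B ^ 3 < (Y ⊓ centralizer (B : Set G)).relIndex Y ^ 2 := by
  let ba : Subgroup G → ℕ := fun U => (B ⊓ centralizer (U : Set G)).relIndex B
  let dr : Subgroup G → ℕ := fun U => (U ⊓ centralizer (B : Set G)).relIndex U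
  obtain ⟨U, -, hU⟩ := Finite.exists_le_maximal
    (p := fun U : Subgroup G => U ≤ Y ∧ ba U ^ 3 ≤ dr U ^ 2 ∧
      (¬ B ≤ centralizer (U : Set G) → ba U ^ 3 < dr U ^ 2)) (a := ⊥)
    ⟨bot_le, by
      have hb : B ≤ centralizer ((⊥ : Subgroup G) : Set G) := fun b _ =>
        mem_centralizer_iff.2 fun x hx => by rw [mem_bot.1 hx, one_mul, mul_one]
      show (B ⊓ centralizer ((⊥ : Subgroup G) : Set G)).relIndex B ^ 3 ≤
        ((⊥ : Subgroup G) ⊓ centralizer (B : Set G)).relIndex ⊥ ^ 2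
      rw [inf_eq_left.2 hb, relIndex_self, relIndex_bot_right]
      norm_num, fun h => absurd (fun b _ =>
        mem_centralizer_iff.2 fun x hx => by rw [mem_bot.1 hx, one_mul, mul_one]) h⟩
  obtain ⟨hUY, hUle, hUlt⟩ := hU.prop
  suffices hY' : Y ≤ U by
    obtain rfl : U = Y := le_antisymm hUY hY'
    exact hUlt hBY
  refine hY.trans (iSup_le fun i => ?_)
  by_contra hiU
  set V := W i
  set B' := B ⊓ centralizer (U : Set G) with hB'
  have hcen : B ⊓ centralizer ((U ⊔ V : Subgroup G) : Set G) = B' ⊓ centralizer (V : Set G) := by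
    refine le_antisymm (le_inf (inf_le_inf_left _ (centralizer_le (le_sup_left : U ≤ U ⊔ V)))
      (inf_le_right.trans (centralizer_le (le_sup_right : V ≤ U ⊔ V)))) ?_
    refine le_inf (inf_le_left.trans inf_le_left) ?_
    rw [le_centralizer_iff]
    exact sup_le (le_centralizer_iff.1 (inf_le_left.trans inf_le_right))
      (le_centralizer_iff.1 inf_le_right)
  have hba : ba (U ⊔ V) = ba U * (B' ⊓ centralizer (V : Set G)).relIndex B' := by
    show (B ⊓ centralizer ((U ⊔ V : Subgroup G) : Set G)).relIndex B = _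
    rw [hcen, mul_comm]
    exact (relIndex_mul_relIndex _ B' B inf_le_left inf_le_left).symm
  have hdr : dr U * (V ⊓ centralizer (B' : Set G)).relIndex V ≤ dr (U ⊔ V) := by
    set K := (U ⊔ V) ⊓ centralizer (B : Set G)
    set M := (U ⊔ V) ⊓ centralizer (B' : Set G)
    have hUM : U ≤ M := le_inf le_sup_left (le_centralizer_iff.1 inf_le_right)
    have hKM : K ≤ M := inf_le_inf_left _ (centralizer_le inf_le_left)
    show _ ≤ K.relIndex (U ⊔ V)
    rw [← relIndex_mul_relIndex K M (U ⊔ V) hKM inf_le_left]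
    refine Nat.mul_le_mul ?_ ?_
    · refine le_trans (le_of_eq ?_) (relIndex_le_of_le_right hUM Subgroup.index_ne_zero_of_finite)
      show (U ⊓ centralizer (B : Set G)).relIndex U = K.relIndex U
      rw [← inf_relIndex_right K U, inf_comm K, ← inf_assoc, inf_eq_left.2 (le_sup_left : U ≤ U ⊔ V)]
    · refine le_trans (le_of_eq ?_) (relIndex_le_of_le_right (le_sup_right : V ≤ U ⊔ V)
        Subgroup.index_ne_zero_of_finite)
      rw [← inf_relIndex_right M V, inf_comm M, ← inf_assoc, inf_eq_left.2 (le_sup_right : V ≤ U ⊔ V)]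
  have hel : Cfsg.IsElementaryAbelian 2 B' := H34.isElementaryAbelian_mono hB inf_le_left
  have hnew : (B' ⊓ centralizer (V : Set G)).relIndex B' ^ 3 ≤
      (V ⊓ centralizer (B' : Set G)).relIndex V ^ 2 ∧
      (¬ B' ≤ centralizer (V : Set G) → (B' ⊓ centralizer (V : Set G)).relIndex B' ^ 3 <
        (V ⊓ centralizer (B' : Set G)).relIndex V ^ 2) := by
    have hstr : ¬ B' ≤ centralizer (V : Set G) → (B' ⊓ centralizer (V : Set G)).relIndex B' ^ 3 <
        (V ⊓ centralizer (B' : Set G)).relIndex V ^ 2 := fun h =>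
      (hW i).2.2.2 B' (inf_le_left.trans hBT) ((commutator_self_eq_bot hel).trans_le bot_le)
        (fun r hr => by rw [hel.2 r hr]; exact one_mem _) h
    refine ⟨?_, hstr⟩
    by_cases h : B' ≤ centralizer (V : Set G)
    · rw [inf_eq_left.2 h, relIndex_self, one_pow]
      exact Nat.one_le_pow _ _ (relIndex_inf_pos _ _)
    · exact (hstr h).le
  refine hiU (le_sup_right.trans (hU.le_of_ge ?_ le_sup_left))
  have hbig : ba U ^ 3 * (B' ⊓ centralizer (V : Set G)).relIndex B' ^ 3 ≤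
      dr U ^ 2 * (V ⊓ centralizer (B' : Set G)).relIndex V ^ 2 := Nat.mul_le_mul hUle hnew.1
  have hdr2 : dr U ^ 2 * (V ⊓ centralizer (B' : Set G)).relIndex V ^ 2 ≤ dr (U ⊔ V) ^ 2 := by
    rw [← mul_pow]; exact Nat.pow_le_pow_left hdr 2
  refine ⟨sup_le hUY (hWY i), ?_, fun hne => ?_⟩
  · rw [hba, mul_pow]; exact hbig.trans hdr2
  · rw [hba, mul_pow]
    refine lt_of_lt_of_le ?_ hdr2
    by_cases hBU : B ≤ centralizer (U : Set G)
    · have hB'V : ¬ B' ≤ centralizer (V : Set G) := fun h => hne fun b hb =>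
        (hcen.symm.le ⟨⟨hb, hBU hb⟩, h ⟨hb, hBU hb⟩⟩).2
      exact Nat.mul_lt_mul_of_le_of_lt hUle (hnew.2 hB'V)
        (Nat.pow_pos (relIndex_inf_pos U _))
    · exact Nat.mul_lt_mul_of_lt_of_le (hUlt hBU) hnew.1 (Nat.pow_pos (relIndex_inf_pos _ _))

end Cfsg.Agent.H72.EG
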