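import Cfsg.Agent.H72.EG.Phi
import Cfsg.Agent.H72.EG.Bound
import Cfsg.Agent.H94.CharSeries
import Mathlib

/-!
The three factorizations.
-/

set_option autoImplicit false
set_option linter.style.haveILetI false
open scoped commutatorElement

namespace Cfsg.Agent.H72.EG

open Subgroup
open Cfsg.Agent.H83 (maxElem)

universe u

variable {G : Type u} [Group G] [Finite G]

/-- What the first two factorizations rest on. -/
theorem center_data (hchar : centralizer (Cfsg.pCore 2 G : Set G) ≤ Cfsg.pCore 2 G)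
    (h4 : ¬ Cfsg.Involves (Equiv.Perm (Fin 4)) G) (hK : CompK G) (S : Sylow 2 G) :
    ∃ C : Subgroup G, C.Normal ∧
      C ≤ centralizer (((S : Subgroup G) ⊓ centralizer ((S : Subgroup G) : Set G) : Subgroup G) : Set G) ∧
      Cfsg.thompsonSubgroupOf 2 (S : Subgroup G) ≤ C ∧ jHatOf (S : Subgroup G) ≤ C := by
  haveI : Fact (Nat.Prime 2) := ⟨Nat.prime_two⟩
  have h3 : ¬ Cfsg.Involves (Equiv.Perm (Fin 3)) G := H83.not_involves_s3_of_char_two hchar h4
  haveI := H19.pCore_normal 2 G
  set Q := Cfsg.pCore 2 G with hQdef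
  have hQS : Q ≤ (S : Subgroup G) := H19.pCore_le_sylow S
  set Z := (S : Subgroup G) ⊓ centralizer ((S : Subgroup G) : Set G) with hZ
  set Y := normalClosure (Z : Set G) with hY
  haveI hYn : Y.Normal := normalClosure_normal
  have hZY : Z ≤ Y := le_normalClosure
  haveI : (centralizer (Q : Set G)).Normal := inferInstance
  have hYCQ : Y ≤ centralizer (Q : Set G) :=
    normalClosure_le_normal fun z hz => centralizer_le hQS hz.2
  have hYQ : Y ≤ Q := hYCQ.trans hchar
  have hYY : Y ≤ centralizer (Y : Set G) := hYCQ.trans (centralizer_le hYQ)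
  have hYc : IsMulCommutative Y :=
    ⟨⟨fun a b => Subtype.ext (mem_centralizer_iff.1 (hYY b.2) a a.2)⟩⟩
  have hY2 : IsPGroup 2 Y := (H19.pCore_isPGroup 2).to_le hYQ
  set C := centralizer (Y : Set G) with hC
  haveI hCn : C.Normal := by rw [hC]; infer_instance
  have hCZ : C ≤ centralizer (Z : Set G) := centralizer_le hZY
  set V := Cfsg.omegaOne 2 Y with hVdef
  haveI := hYc
  have hVel : Cfsg.IsElementaryAbelian 2 V := H34.omegaOne_isElementaryAbelian
  have hVY : V ≤ Y := H34.omegaOne_le Y
  haveI hVn : V.Normal := by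
    refine ⟨fun v hv g => ?_⟩
    have h : V ≤ V.comap (MulAut.conj g).toMonoidHom := by
      rw [hVdef, Cfsg.omegaOne, closure_le]
      rintro x ⟨hx, hx2⟩
      refine subset_closure ⟨Subgroup.Normal.conj_mem hYn x hx g, ?_⟩
      show (g * x * g⁻¹) ^ 2 = 1
      rw [conj_pow, hx2]; group
    exact h hv
  -- normal subgroups which are 2-groups modulo `C` are in `C`
  have htriv : ∀ N : Subgroup G, N.Normal → C ≤ N → (∀ x ∈ N, ∃ k : ℕ, x ^ 2 ^ k ∈ C) → N ≤ C := by
    intro N hN hCN hp
    have h1 : N ≤ centralizer (Z : Set G) := (le_sup_sylow hN S hp hCN).trans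
      (sup_le hCZ (inf_le_left.trans (le_centralizer_iff.1 inf_le_right)))
    refine le_centralizer_iff.1 (normalClosure_le_normal (N := centralizer (N : Set G)) ?_)
    exact le_centralizer_iff.1 h1
  have hCV : centralizer (V : Set G) ≤ C := by
    refine htriv _ inferInstance (centralizer_le hVY) fun x hx => ?_
    obtain ⟨a, l, hl, hal⟩ := Nat.exists_eq_pow_mul_and_not_dvd (orderOf_pos x).ne' 2 (by norm_num)
    refine ⟨a, odd_centralizes_of_omega hYc hY2 ?_ (pow_mem hx _)⟩
    rw [orderOf_pow' x (by positivity), hal, Nat.gcd_mul_right_left, Nat.mul_div_cancel_left _ (by positivity)]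
    exact Nat.odd_iff.2 (by omega)
  have hO : Cfsg.pCore 2 (G ⧸ centralizer (V : Set G)) = ⊥ := by
    have hVC : C ≤ centralizer (V : Set G) := centralizer_le hVY
    set π := QuotientGroup.mk' (centralizer (V : Set G))
    have hle : (Cfsg.pCore 2 (G ⧸ centralizer (V : Set G))).comap π ≤ C := by
      refine htriv _ ((H19.pCore_normal 2 _).comap π) (fun c hc => ?_) fun x hx => ?_
      · rw [mem_comap, show π c = 1 from (QuotientGroup.eq_one_iff c).2 (hVC hc)]; exact one_mem _
      · obtain ⟨k, hk⟩ := H19.pCore_isPGroup (G := G ⧸ centralizer (V : Set G)) 2 ⟨π x, hx⟩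
        refine ⟨k, hCV ((QuotientGroup.eq_one_iff _).1 ?_)⟩
        have h := congrArg Subtype.val hk
        rwa [SubmonoidClass.coe_pow, OneMemClass.coe_one, ← map_pow] at h
    rw [eq_bot_iff]
    intro z hz
    obtain ⟨g, rfl⟩ := QuotientGroup.mk'_surjective (centralizer (V : Set G)) z
    exact mem_bot.2 ((QuotientGroup.eq_one_iff g).2 (hVC (hle hz)))
  have hVS : V ≤ (S : Subgroup G) := hVY.trans (hYQ.trans hQS)
  have hAV : ∀ A ∈ maxElem (S : Subgroup G), A ≤ centralizer (V : Set G) := by
    intro A hA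
    by_contra h
    have h1 := (module_bound hVel hO h3 hK A (fun r hr => by rw [hA.2.1.2 r hr]; exact one_mem _)).1
    have h2 := H83.exchange hA hVel hVS
    have h5 := two_le_relIndex_inf h
    have h6 := h1.trans h2
    rw [pow_two] at h6
    have := Nat.mul_le_mul_right ((A ⊓ centralizer (V : Set G)).relIndex A) h5
    omega
  refine ⟨C, hCn, hCZ, ?_, ?_⟩
  · rw [thompson_eq]
    exact sSup_le fun A hA => (hAV A hA).trans hCV
  · rw [jHatOf_eq]
    refine sSup_le ?_
    rintro U ⟨hUS, hE, hJU⟩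
    obtain ⟨A, hA⟩ := exists_maxElem (S : Subgroup G)
    have hVA : V ≤ A := by
      have hel := H83.elementary_sup hA.2.1 hVel fun a ha v hv =>
        (mem_centralizer_iff.1 (hAV A hA ha) v hv).symm
      rw [eq_of_le_of_card_ge (le_sup_left : A ≤ A ⊔ V) (hA.2.2 _ (sup_le hA.1 hVS) hel)]
      exact le_sup_right
    refine le_trans ?_ hCV
    refine le_centralizer_iff.1 (hE V ⟨hVA.trans ((le_thompson hA).trans hJU),
      le_top.trans (normalizer_eq_top (H := V)).ge, hVel, fun R hR _ hR2 hR3 => ?_⟩)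
    obtain ⟨h1, h2⟩ := module_bound hVel hO h3 hK R hR2
    set a := (R ⊓ centralizer (V : Set G)).relIndex R
    have ha : 2 ≤ a := two_le_relIndex_inf hR3
    set x := (V ⊓ centralizer (R : Set G)).relIndex V
    have hx : a ^ 3 < x ^ 2 := by
      refine lt_of_lt_of_le (Nat.pow_lt_pow_right (by omega) (by norm_num : 3 < 4)) ?_
      calc a ^ 4 = (a ^ 2) ^ 2 := by ring
        _ ≤ x ^ 2 := Nat.pow_le_pow_left h1 2
    refine ⟨?_, ?_⟩
    · rw [← card_inf_mul_relIndex V (centralizer (R : Set G)),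
        ← card_inf_mul_relIndex R (centralizer (V : Set G))]
      set c := Nat.card ↥(R ⊓ centralizer (V : Set G))
      set d := Nat.card ↥(V ⊓ centralizer (R : Set G))
      have hpos : 0 < d ^ 2 * c ^ 3 :=
        Nat.mul_pos (Nat.pow_pos Nat.card_pos) (Nat.pow_pos Nat.card_pos)
      calc (c * a) ^ 3 * d ^ 2 = d ^ 2 * c ^ 3 * a ^ 3 := by ring
        _ < d ^ 2 * c ^ 3 * x ^ 2 := Nat.mul_lt_mul_of_pos_left hx hpos
        _ = _ := by ring
    · rw [← card_inf_mul_relIndex R (centralizer (V : Set G))]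
      set c := Nat.card ↥(R ⊓ centralizer (V : Set G))
      calc c * a < a ^ 2 * c := by
            rw [mul_comm c a]
            refine Nat.mul_lt_mul_of_pos_right ?_ Nat.card_pos
            calc a = a ^ 1 := (pow_one a).symm
              _ < a ^ 2 := Nat.pow_lt_pow_right (by omega) (by norm_num)
        _ ≤ _ := Nat.mul_le_mul_right c h2

theorem jHatOf_inf_eq (S : Subgroup G) {C : Subgroup G} (hJ : jHatOf S ≤ C) :
    jHatOf (S ⊓ C) = jHatOf S := by
  have hJC : Cfsg.thompsonSubgroupOf 2 S ≤ S ⊓ C :=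
    le_inf (H34.thompsonSubgroupOf_le S) ((thompson_le_jHatOf S).trans hJ)
  have hJeq : Cfsg.thompsonSubgroupOf 2 (S ⊓ C) = Cfsg.thompsonSubgroupOf 2 S :=
    H34.thompsonSubgroupOf_eq_of_le hJC inf_le_left
  refine le_antisymm (jHatOf_mono inf_le_left hJeq) ?_
  rw [jHatOf_eq S]
  refine sSup_le fun U hU => le_jHatOf (le_inf hU.1 ?_) hU.2.1 (hJeq.le.trans hU.2.2)
  exact (le_jHatOf hU.1 hU.2.1 hU.2.2).trans hJ

theorem factor_thompson (hchar : centralizer (Cfsg.pCore 2 G : Set G) ≤ Cfsg.pCore 2 G)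
    (h4 : ¬ Cfsg.Involves (Equiv.Perm (Fin 4)) G) (hK : CompK G) (S : Sylow 2 G) (g : G) :
    ∃ c ∈ centralizer (((S : Subgroup G) ⊓ centralizer ((S : Subgroup G) : Set G) : Subgroup G) : Set G),
      ∃ n ∈ normalizer (Cfsg.thompsonSubgroupOf 2 (S : Subgroup G) : Set G), g = c * n := by
  obtain ⟨C, hCn, hCZ, hJC, -⟩ := center_data hchar h4 hK S
  haveI := hCn
  obtain ⟨c, hc, n, hn, rfl⟩ := H83.frattini_arg (sylTwo_top S) le_top (normalizer_eq_top (H := C)).ge
    (mem_top g)
  refine ⟨c, hCZ hc, n, ?_, rfl⟩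
  rw [← H34.thompsonSubgroupOf_eq_of_le (le_inf (H34.thompsonSubgroupOf_le _) hJC) inf_le_left]
  exact H34.normalizer_le_normalizer_thompson _ hn.2

theorem factor_jHat (hchar : centralizer (Cfsg.pCore 2 G : Set G) ≤ Cfsg.pCore 2 G)
    (h4 : ¬ Cfsg.Involves (Equiv.Perm (Fin 4)) G) (hK : CompK G) (S : Sylow 2 G) (g : G) :
    ∃ c ∈ centralizer (((S : Subgroup G) ⊓ centralizer ((S : Subgroup G) : Set G) : Subgroup G) : Set G),
      ∃ n ∈ normalizer (jHatOf (S : Subgroup G) : Set G), g = c * n := by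
  obtain ⟨C, hCn, hCZ, -, hJC⟩ := center_data hchar h4 hK S
  haveI := hCn
  obtain ⟨c, hc, n, hn, rfl⟩ := H83.frattini_arg (sylTwo_top S) le_top (normalizer_eq_top (H := C)).ge
    (mem_top g)
  refine ⟨c, hCZ hc, n, ?_, rfl⟩
  rw [← jHatOf_inf_eq _ hJC]
  exact normalizer_le_normalizer_jHatOf _ hn.2

omit [Finite G] in
theorem map_jHatOf {H : Type u} [Group H] {f : H →* G} (hf : Function.Injective f) (S : Subgroup H) :
    (jHatOf S).map f = jHatOf (S.map f) := by
  apply le_antisymm
  · rw [map_le_iff_le_comap, jHatOf_eq S]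
    refine sSup_le fun U hU => ?_
    rw [← map_le_iff_le_comap]
    refine le_jHatOf (Subgroup.map_mono hU.1) ((isEIn_map_iff hf).2 hU.2.1) ?_
    rw [← map_maxElem hf]
    exact Subgroup.map_mono hU.2.2
  · rw [jHatOf_eq (S.map f)]
    refine sSup_le ?_
    rintro U ⟨hUS, hE, hJ⟩
    obtain ⟨U, rfl⟩ : ∃ U0 : Subgroup H, U = U0.map f :=
      ⟨U.comap f, (map_comap_eq_self (hUS.trans (map_le_range f S))).symm⟩
    refine Subgroup.map_mono (le_jHatOf ((Subgroup.map_le_map_iff_of_injective hf).1 hUS)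
      ((isEIn_map_iff hf).1 hE) ?_)
    rw [← Subgroup.map_le_map_iff_of_injective hf, map_maxElem hf]
    exact hJ

/-- `Ω₁(Z(Ĵ(S)))`. -/
def omegaJHat (S : Subgroup G) : Subgroup G :=
  Cfsg.omegaOne 2 (jHatOf S ⊓ centralizer (jHatOf S : Set G))

theorem omegaJHat_le_thompson (S : Subgroup G) : omegaJHat S ≤ Cfsg.thompsonSubgroupOf 2 S := by
  haveI : IsMulCommutative ↥(jHatOf S ⊓ centralizer (jHatOf S : Set G)) :=
    H34.isMulCommutative_inf_centralizer _
  have hel : Cfsg.IsElementaryAbelian 2 (omegaJHat S) := H34.omegaOne_isElementaryAbelian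
  have hle : omegaJHat S ≤ jHatOf S ⊓ centralizer (jHatOf S : Set G) := H34.omegaOne_le _
  obtain ⟨A, hA⟩ := exists_maxElem S
  have hsup := H83.elementary_sup hA.2.1 hel fun a ha w hw =>
    mem_centralizer_iff.1 (hle hw).2 a (thompson_le_jHatOf S (le_thompson hA ha))
  have hWS : omegaJHat S ≤ S := (hle.trans inf_le_left).trans (jHatOf_le S)
  refine le_trans ?_ (le_thompson hA)
  rw [eq_of_le_of_card_ge (le_sup_left : A ≤ A ⊔ omegaJHat S) (hA.2.2 _ (sup_le hA.1 hWS) hsup)]
  exact le_sup_right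

/-- The third factorization. -/
theorem factor_omega : ∀ (n : ℕ) (H : Type u) [Group H] [Finite H], Nat.card H = n →
    centralizer (Cfsg.pCore 2 H : Set H) ≤ Cfsg.pCore 2 H →
    ¬ Cfsg.Involves (Equiv.Perm (Fin 4)) H → CompK H → ∀ (S : Sylow 2 H) (g : H),
    ∃ c ∈ centralizer (omegaJHat (S : Subgroup H) : Set H),
      ∃ m ∈ normalizer (Cfsg.thompsonSubgroupOf 2 (S : Subgroup H) : Set H), g = c * m := by
  intro n
  induction n using Nat.strong_induction_on with
  | _ n ih =>
    intro H _ _ hn hchar h4 hK S g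
    haveI : Fact (Nat.Prime 2) := ⟨Nat.prime_two⟩
    set J := Cfsg.thompsonSubgroupOf 2 (S : Subgroup H) with hJdef
    set L := normalClosure (J : Set H) with hLdef
    haveI hLn : L.Normal := normalClosure_normal
    have hJL : J ≤ L := le_normalClosure
    by_cases hL : L = ⊤
    · -- every strong subgroup is central
      have hcentral : ∀ V, Strong (S : Subgroup H) V → V ≤ centralizer ((S : Subgroup H) : Set H) := by
        intro V hV
        have hfix : Fixes H := fixes_all (Nat.card H) H rfl hchar h4 hK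
        set N := ⨆ x : H, V.map (MulAut.conj x).toMonoidHom with hN
        have hVN : V ≤ N := le_iSup_of_le 1 fun v hv => ⟨v, hv, by simp⟩
        haveI : N.Normal := ⟨fun y hy x => by
          have hle : N ≤ N.comap (MulAut.conj x).toMonoidHom := iSup_le fun z => by
            rw [← map_le_iff_le_comap, Subgroup.map_map]
            refine le_iSup_of_le (x * z) (le_of_eq ?_)
            congr 1
            ext w; simp [mul_assoc]
          exact hle hy⟩
        have hJN : J ≤ centralizer (N : Set H) := le_centralizer_iff.1 (iSup_le fun x =>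
          le_centralizer_iff.1 (hfix S V hV x))
        have hLN : L ≤ centralizer (N : Set H) := normalClosure_le_normal hJN
        rw [hL] at hLN
        exact hVN.trans ((le_centralizer_iff.1 hLN).trans (centralizer_le (Set.subset_univ _)))
      have hE : IsEIn (S : Subgroup H) := fun V hV => hcentral V hV.strong
      have hJhat : jHatOf (S : Subgroup H) = S :=
        le_antisymm (jHatOf_le _) (le_jHatOf le_rfl hE (H34.thompsonSubgroupOf_le _))
      obtain ⟨C, hCn, hCZ, hJC, -⟩ := center_data hchar h4 hK S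
      have hLC : L ≤ C := normalClosure_le_normal hJC
      refine ⟨g, ?_, 1, one_mem _, (mul_one g).symm⟩
      rw [omegaJHat, hJhat]
      exact centralizer_le (H34.omegaOne_le _) (hCZ (hLC (hL ▸ mem_top g)))
    · have hcard : Nat.card L < Nat.card H :=
        lt_of_le_of_ne (card_le_card_group L) fun e => hL (card_eq_iff_eq_top L |>.1 e)
      obtain ⟨P, hP⟩ := ((sylTwo_top S).inf_normal le_top (normalizer_eq_top (H := L)).ge).exists_sylow
      have hPmap : (P : Subgroup L).map L.subtype = (S : Subgroup H) ⊓ L := by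
        rw [hP, map_subgroupOf_eq_of_le inf_le_right]
      obtain ⟨l, hl, m, hm, rfl⟩ := H83.frattini_arg (sylTwo_top S) le_top (normalizer_eq_top (H := L)).ge
        (mem_top g)
      obtain ⟨c, hc, k, hk, hck⟩ := ih (Nat.card L) (hn ▸ hcard) L rfl
        (H94.centralizer_pCore_le_of_normal (p := 2) hchar L) (involves_of_subgroup' h4)
        (compK_normal hK hLn) P ⟨l, hl⟩
      have hJeq : Cfsg.thompsonSubgroupOf 2 ((S : Subgroup H) ⊓ L) = J :=
        H34.thompsonSubgroupOf_eq_of_le (le_inf (H34.thompsonSubgroupOf_le _) hJL) inf_le_left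
      have hk' : (k : H) ∈ normalizer (J : Set H) := by
        rw [← hJeq, ← hPmap, ← map_maxElem L.subtype_injective]
        exact le_normalizer_map L.subtype ⟨k, hk, rfl⟩
      have hc' : (c : H) ∈ centralizer (omegaJHat (S : Subgroup H) : Set H) := by
        have h1 : (omegaJHat (P : Subgroup L)).map L.subtype = omegaJHat ((S : Subgroup H) ⊓ L) := by
          rw [omegaJHat, H34.map_omegaOne _ L.subtype_injective, map_centralizer_inf L.subtype_injective,
            map_jHatOf L.subtype_injective, hPmap, omegaJHat]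
        have h2 : omegaJHat (S : Subgroup H) ≤ omegaJHat ((S : Subgroup H) ⊓ L) := by
          have hmono : jHatOf ((S : Subgroup H) ⊓ L) ≤ jHatOf (S : Subgroup H) :=
            jHatOf_mono inf_le_left hJeq
          rw [omegaJHat, Cfsg.omegaOne, closure_le]
          rintro x ⟨hx, hx2⟩
          have hxJ : x ∈ J := omegaJHat_le_thompson _ (subset_closure ⟨hx, hx2⟩)
          refine subset_closure ⟨⟨?_, centralizer_le hmono hx.2⟩, hx2⟩
          exact thompson_le_jHatOf _ (hJeq.ge hxJ)
        refine centralizer_le h2 ?_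
        rw [← h1]
        refine mem_centralizer_iff.2 ?_
        rintro _ ⟨w, hw, rfl⟩
        exact congrArg Subtype.val (mem_centralizer_iff.1 hc w hw)
      have hm' : m ∈ normalizer (J : Set H) := by
        rw [← hJeq]; exact H34.normalizer_le_normalizer_thompson _ hm.2
      refine ⟨c, hc', (k : H) * m, mul_mem hk' hm', ?_⟩
      have := congrArg Subtype.val hck
      rw [← mul_assoc, ← Subgroup.coe_mul, ← hck]

end Cfsg.Agent.H72.EG
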