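import Cfsg.Agent.H72.EG.FixMod
import Mathlib

/-!
The case in which `O²` is trivial modulo the bottom section: `V` is then too small.
-/

set_option autoImplicit false
set_option linter.style.haveILetI false
open scoped commutatorElement

namespace Cfsg.Agent.H72.EG

open Subgroup

universe u

variable {G : Type u} [Group G] [Finite G]

omit [Finite G] in
theorem conj_pow_of_commutator {z x w : G} (hzw : z * w = w * z) (hx : z * x * z⁻¹ = w * x) :
    ∀ i : ℕ, z ^ i * x * (z ^ i)⁻¹ = w ^ i * x := by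
  intro i
  induction i with
  | zero => simp
  | succ i ih =>
    rw [pow_succ', show z * z ^ i * x * (z * z ^ i)⁻¹ = z * (z ^ i * x * (z ^ i)⁻¹) * z⁻¹ by group, ih]
    have hc : Commute z (w ^ i) := Commute.pow_right hzw i
    calc z * (w ^ i * x) * z⁻¹ = (z * w ^ i) * x * z⁻¹ := by group
      _ = (w ^ i * z) * x * z⁻¹ := by rw [hc.eq]
      _ = w ^ i * (z * x * z⁻¹) := by group
      _ = w ^ (i + 1) * x := by rw [hx, ← mul_assoc, ← pow_succ]
      _ = _ := by rw [pow_succ]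

/-- If odd elements centralise `P` on `Y` and the fixed points of `P` are fixed by `O²`, then `O²`
centralises `Y`. -/
theorem pResidual_le_centralizer_of_commute {Y P : Subgroup G} [Y.Normal] [P.Normal]
    (hY : Cfsg.IsElementaryAbelian 2 Y) (hPpow : ∀ p ∈ P, ∃ k : ℕ, p ^ 2 ^ k ∈ centralizer (Y : Set G))
    (hfix : Cfsg.pResidual 2 G ≤ centralizer ((Y ⊓ centralizer (P : Set G) : Subgroup G) : Set G))
    (hcomm : ⁅P, Cfsg.pResidual 2 G⁆ ≤ centralizer (Y : Set G)) :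
    Cfsg.pResidual 2 G ≤ centralizer (Y : Set G) := by
  refine pResidual_le fun z hz => ?_
  have hzΩ : z ∈ Cfsg.pResidual 2 G := subset_closure (Nat.coprime_two_right.2 hz)
  have hYc : ∀ a ∈ Y, ∀ c ∈ Y, a * c = c * a := fun a ha c hc => H83.comm_of_elementary hY ha hc
  have hkey : ∀ p ∈ P, ∀ y ∈ Y, p * (z * y * z⁻¹) * p⁻¹ = z * (p * y * p⁻¹) * z⁻¹ := by
    intro p hp y hy
    have hc := mem_centralizer_iff.1 (hcomm (commutator_mem_commutator hp hzΩ)) _
      (Subgroup.Normal.conj_mem inferInstance _ (Subgroup.Normal.conj_mem inferInstance y hy p) z)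
    rw [commutatorElement_def] at hc
    calc p * (z * y * z⁻¹) * p⁻¹
        = (p * z * p⁻¹ * z⁻¹) * (z * (p * y * p⁻¹) * z⁻¹) * (p * z * p⁻¹ * z⁻¹)⁻¹ := by group
      _ = _ := by rw [← hc]; group
  set M := Y ⊓ centralizer ({z} : Set G) with hM
  by_contra hzY
  have hlt : M < Y := inf_le_left.lt_of_ne fun he => hzY (mem_centralizer_iff.2 fun y hy =>
    mem_centralizer_singleton_iff.1 (he.ge hy : y ∈ M).2)
  have hPM' : ∀ p ∈ P, ∀ m ∈ M, p * m * p⁻¹ ∈ M := by
    intro p hp m hm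
    refine ⟨Subgroup.Normal.conj_mem inferInstance m hm.1 p, mem_centralizer_singleton_iff.2 ?_⟩
    have hzm : z * m * z⁻¹ = m := by
      rw [← mem_centralizer_singleton_iff.1 hm.2, mul_inv_cancel_right]
    have h := hkey p hp m hm.1
    rw [hzm] at h
    have h' : z * (p * m * p⁻¹) = (p * m * p⁻¹) * z := (mul_inv_eq_iff_eq_mul.1 h.symm)
    exact h'.symm
  have hPM : P ≤ normalizer (M : Set G) := fun p hp => mem_normalizer_iff.2 fun m =>
    ⟨hPM' p hp m, fun h => by simpa [mul_assoc] using hPM' p⁻¹ (inv_mem hp) _ h⟩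
  obtain ⟨x, hxY, hxM, hx⟩ := exists_fixed_section (L := P) hY hlt
    (le_top.trans (normalizer_eq_top (H := Y)).ge) hPM (fun p hp => by
      obtain ⟨k, hk⟩ := hPpow p hp
      refine ⟨k, fun y hy => ?_⟩
      rw [← mem_centralizer_iff.1 hk y hy, mul_inv_cancel_right, mul_inv_cancel]
      exact one_mem _)
  set w := z * x * z⁻¹ * x⁻¹ with hw
  have hwY : w ∈ Y := mul_mem (Subgroup.Normal.conj_mem inferInstance x hxY z) (inv_mem hxY)
  have hwP : w ∈ centralizer (P : Set G) := by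
    refine mem_centralizer_iff.2 fun p hp => ?_
    obtain ⟨hmY, hmz⟩ := hx p hp
    set m := p * x * p⁻¹ * x⁻¹
    have hzm : z * m * z⁻¹ = m := by
      rw [← mem_centralizer_singleton_iff.1 hmz, mul_inv_cancel_right]
    have h : p * w * p⁻¹ = w := by
      have e : p * w * p⁻¹ = p * (z * x * z⁻¹) * p⁻¹ * (p * x * p⁻¹)⁻¹ := by rw [hw]; group
      rw [e, hkey p hp x hxY, show p * x * p⁻¹ = m * x by simp [m]]
      calc z * (m * x) * z⁻¹ * (m * x)⁻¹ = z * m * z⁻¹ * (z * x * z⁻¹) * x⁻¹ * m⁻¹ := by group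
        _ = m * w * m⁻¹ := by rw [hzm, hw]; group
        _ = w := by rw [hYc m hmY w hwY, mul_inv_cancel_right]
    exact mul_inv_eq_iff_eq_mul.1 h
  have hzw : z * w = w * z := (mem_centralizer_iff.1 (hfix hzΩ) w ⟨hwY, hwP⟩).symm
  have hn := conj_pow_of_commutator (x := x) hzw (by rw [hw]; group) (orderOf z)
  rw [pow_orderOf_eq_one, one_mul, inv_one, mul_one, right_eq_mul] at hn
  obtain ⟨j, hj⟩ := hz
  rw [hj, pow_succ, pow_mul, show w ^ 2 = 1 from hY.2 w hwY, one_pow, one_mul] at hn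
  refine hxM ⟨hxY, mem_centralizer_singleton_iff.2 ?_⟩
  rw [hw, mul_inv_eq_one, mul_inv_eq_iff_eq_mul] at hn
  exact hn.symm

/-- The final count. -/
theorem case_one {S : Sylow 2 G} {V Y C P Ya D : Subgroup G} [Y.Normal] [C.Normal] [P.Normal] [Ya.Normal]
    [D.Normal] (hV : Strong (S : Subgroup G) V) (hVY : V ≤ Y) (hY : Cfsg.IsElementaryAbelian 2 Y)
    (hC : C = centralizer (Y : Set G))
    (hCV : ∀ N : Subgroup G, N.Normal → N ≤ centralizer (V : Set G) → N ≤ C) (hCP : C ≤ P)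
    (hPpow : ∀ p ∈ P, ∃ k : ℕ, p ^ 2 ^ k ∈ C) (hD : D = Y ⊓ centralizer (Cfsg.pResidual 2 G : Set G))
    (hPY : ∀ p ∈ P, ∀ y ∈ Y, p * y * p⁻¹ * y⁻¹ ∈ D) (hYgen : Y ≤ V ⊔ (Ya ⊔ D))
    (hYaY : Cfsg.pResidual 2 G ≤ Cfsg.sectionKernel Y Ya)
    (hmin : ∀ N : Subgroup G, N.Normal → N ≤ Ya → N ≠ Ya →
      Cfsg.pResidual 2 G ≤ centralizer (N : Set G))
    (hPnC : ¬ ⁅P, Cfsg.pResidual 2 G⁆ ≤ C) : False := by
  haveI : Fact (Nat.Prime 2) := ⟨Nat.prime_two⟩
  set Ω := Cfsg.pResidual 2 G with hΩ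
  haveI hΩn : Ω.Normal := H50.pResidual_normal 2 G
  haveI hPnn : (⁅P, Ω⁆).Normal := inferInstance
  set Pn := ⁅P, Ω⁆ with hPn
  have hPnP : Pn ≤ P := commutator_le_left _ _
  have hPnΩ : Pn ≤ Ω := commutator_le_right _ _
  have hYc : ∀ a ∈ Y, ∀ c ∈ Y, a * c = c * a := fun a ha c hc => H83.comm_of_elementary hY ha hc
  have hDY : D ≤ Y := hD ▸ inf_le_left
  have hΩD : Ω ≤ centralizer (D : Set G) := le_centralizer_iff.1 (hD ▸ inf_le_right)
  have hCfix : ∀ c ∈ C, ∀ y ∈ Y, c * y * c⁻¹ = y := fun c hc y hy => by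
    rw [← mem_centralizer_iff.1 (hC.le hc) y hy, mul_inv_cancel_right]
  have hDfix : ∀ x ∈ C ⊔ Pn, ∀ d ∈ D, x * d * x⁻¹ = d := by
    intro x hx d hd
    have hle : C ⊔ Pn ≤ centralizer (D : Set G) :=
      sup_le (hC.le.trans (centralizer_le hDY)) (hPnΩ.trans hΩD)
    rw [← mem_centralizer_iff.1 (hle hx) d hd, mul_inv_cancel_right]
  have hCPP : C ⊔ Pn ≤ P := sup_le hCP hPnP
  -- the subgroup `R`
  set R := (S : Subgroup G) ⊓ (C ⊔ Pn) with hR
  have hCR : C ⊔ Pn ≤ C ⊔ R :=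
    le_sup_sylow inferInstance S (fun x hx => hPpow x (hCPP hx)) le_sup_left
  have hact : ∀ r ∈ C ⊔ Pn, ∀ s ∈ C ⊔ Pn, ∀ y ∈ Y,
      r * s * y * (r * s)⁻¹ = (r * y * r⁻¹ * y⁻¹) * (s * y * s⁻¹ * y⁻¹) * y := by
    intro r hr s hs y hy
    have hds : s * y * s⁻¹ * y⁻¹ ∈ D := hPY s (hCPP hs) y hy
    have hdr : r * y * r⁻¹ * y⁻¹ ∈ D := hPY r (hCPP hr) y hy
    calc r * s * y * (r * s)⁻¹ = (r * (s * y * s⁻¹ * y⁻¹) * r⁻¹) * (r * y * r⁻¹ * y⁻¹) * y := by group
      _ = (s * y * s⁻¹ * y⁻¹) * (r * y * r⁻¹ * y⁻¹) * y := by rw [hDfix r hr _ hds]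
      _ = _ := by rw [hYc _ (hDY hds) _ (hDY hdr)]
  have hswap : ∀ r ∈ C ⊔ Pn, ∀ s ∈ C ⊔ Pn, ∀ y ∈ Y, r * s * y * (r * s)⁻¹ = s * r * y * (s * r)⁻¹ := by
    intro r hr s hs y hy
    rw [hact r hr s hs y hy, hact s hs r hr y hy,
      hYc _ (hDY (hPY r (hCPP hr) y hy)) _ (hDY (hPY s (hCPP hs) y hy))]
  have hRR : ⁅R, R⁆ ≤ centralizer (V : Set G) := by
    refine commutator_le.2 fun r hr s hs => centralizer_le hVY (mem_centralizer_iff.2 fun y hy => ?_)
    have h := hswap r hr.2 s hs.2 ((s * r)⁻¹ * y * (s * r)) (by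
      have := Subgroup.Normal.conj_mem (inferInstance : Y.Normal) y hy (s * r)⁻¹
      rwa [inv_inv] at this)
    rw [show s * r * ((s * r)⁻¹ * y * (s * r)) * (s * r)⁻¹ = y by group] at h
    rw [commutatorElement_def]
    have h2 : ((r * s) * (s * r)⁻¹) * y * ((r * s) * (s * r)⁻¹)⁻¹ = y := by
      conv_rhs => rw [← h]
      group
    rw [show r * s * r⁻¹ * s⁻¹ = (r * s) * (s * r)⁻¹ by group]
    exact (mul_inv_eq_iff_eq_mul.1 h2).symm
  have hR2 : ∀ r ∈ R, r ^ 2 ∈ centralizer (V : Set G) := by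
    intro r hr
    refine centralizer_le hVY (mem_centralizer_iff.2 fun y hy => ?_)
    have h := hact r hr.2 r hr.2 y hy
    rw [H83.mul_self_of_elementary hY (hDY (hPY r (hCPP hr.2) y hy)), one_mul] at h
    rw [sq]
    exact (mul_inv_eq_iff_eq_mul.1 h).symm
  have hRV : ¬ R ≤ centralizer (V : Set G) := fun h => hPnC <| le_sup_right.trans <|
    hCV (C ⊔ Pn) inferInstance (hCR.trans (sup_le (hC.le.trans (centralizer_le hVY)) h))
  -- the target
  haveI hZn : (⁅Pn, Y⁆).Normal := inferInstance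
  set Z1 := ⁅Pn, Y⁆ with hZ1
  have hZ1D : Z1 ≤ D := commutator_le.2 fun x hx y hy => by
    rw [commutatorElement_def]; exact hPY x (hPnP hx) y hy
  have hZ1ne : Z1 ≠ ⊥ := fun h => hPnC (hC.ge.trans' (commutator_eq_bot_iff_le_centralizer.1 h))
  obtain ⟨Z', -, hZ'⟩ := Finite.exists_le_maximal (p := fun N : Subgroup G => N.Normal ∧ N < Z1)
    (a := ⊥) ⟨inferInstance, bot_lt_iff_ne_bot.2 hZ1ne⟩
  obtain ⟨hZ'n, hZ'lt⟩ := hZ'.prop
  haveI := hZ'n
  have hZ1el : Cfsg.IsElementaryAbelian 2 Z1 := H34.isElementaryAbelian_mono hY (hZ1D.trans hDY)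
  have hidx : Z'.relIndex Z1 ≤ 2 := by
    obtain ⟨x, hxZ, hxZ', hx⟩ := exists_fixed_section (L := ⊤) hZ1el hZ'lt
      (normalizer_eq_top (H := Z1)).ge (normalizer_eq_top (H := Z')).ge (fun l _ => by
        obtain ⟨k, hk⟩ := H50.isPGroup_quotient_of_pResidual_le (p := 2) (N := Ω) le_rfl
          (QuotientGroup.mk l)
        rw [← QuotientGroup.mk_pow, QuotientGroup.eq_one_iff] at hk
        refine ⟨k, fun y hy => ?_⟩
        rw [← mem_centralizer_iff.1 (hΩD hk) y (hZ1D hy), mul_inv_cancel_right, mul_inv_cancel]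
        exact one_mem _)
    refine relIndex_le_two hZ1el hZ'lt.le hxZ ?_
    by_contra hne
    have hle : Z' ⊔ zpowers x ≤ Z1 := sup_le hZ'lt.le (zpowers_le.2 hxZ)
    have hn : (Z' ⊔ zpowers x).Normal := by
      refine ⟨fun z hz g => ?_⟩
      have hle' : Z' ⊔ zpowers x ≤ (Z' ⊔ zpowers x).comap (MulAut.conj g).toMonoidHom := by
        refine sup_le (fun a ha => mem_sup_left (Subgroup.Normal.conj_mem hZ'n a ha g)) (zpowers_le.2 ?_)
        show g * x * g⁻¹ ∈ Z' ⊔ zpowers x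
        have h := mul_mem (mem_sup_left (T := zpowers x) (hx g (mem_top g)))
          (mem_sup_right (S := Z') (mem_zpowers x))
        simpa using h
      exact hle' hz
    exact hxZ' ((hZ'.le_of_ge ⟨hn, hle.lt_of_ne hne⟩ le_sup_left) (mem_sup_right (mem_zpowers x)))
  set Kd := fixMod Pn Y Z' with hKd
  haveI hKdn : Kd.Normal := fixMod_normal hPnn inferInstance
  have hDKd : D ≤ Kd := fun d hd => mem_fixMod.2 ⟨hDY hd, fun x hx => by
    rw [hDfix x (mem_sup_right hx) d hd, mul_inv_cancel]; exact one_mem _⟩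
  -- the homomorphism property
  have hhom : ∀ a ∈ Pn, ∀ c ∈ Pn, ∀ v ∈ Y, a * c * v * (a * c)⁻¹ * v⁻¹ =
      (a * v * a⁻¹ * v⁻¹) * (c * v * c⁻¹ * v⁻¹) := by
    intro a ha c hc v hv
    rw [hact a (mem_sup_right ha) c (mem_sup_right hc) v hv]; group
  have hYaKd : ¬ Ya ≤ Kd := by
    intro hYa
    have hYKd : Y ≤ Kd := by
      refine hYgen.trans (sup_le (fun v hv => ?_) (sup_le hYa hDKd))
      have hvY := hVY hv
      let T : Subgroup G := Pn ⊓ (centralizer ({QuotientGroup.mk' Z' v} : Set (G ⧸ Z'))).comap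
        (QuotientGroup.mk' Z')
      have hT : ∀ a, a ∈ T ↔ a ∈ Pn ∧ a * v * a⁻¹ * v⁻¹ ∈ Z' := fun a =>
        and_congr_right fun _ => (mem_centralizer_singleton_iff.trans commutator_mem_iff.symm)
      have hinv : ∀ ω ∈ Ω, ∀ a ∈ T, ω * a * ω⁻¹ ∈ T := by
        intro ω hω a ha
        obtain ⟨ha1, ha2⟩ := (hT a).1 ha
        refine (hT _).2 ⟨Subgroup.Normal.conj_mem hPnn a ha1 ω, ?_⟩
        set v' := ω⁻¹ * v * ω
        set w := v' * v⁻¹
        have hw : w ∈ Ya := by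
          have h := mem_secKer.1 (hYaY (inv_mem hω)) v hvY
          simpa [w, v', mul_assoc] using h
        have hwY : w ∈ Y := mul_mem (by
          have h := Subgroup.Normal.conj_mem (inferInstance : Y.Normal) v hvY ω⁻¹
          simpa using h) (inv_mem hvY)
        have h1 : a * w * a⁻¹ * w⁻¹ ∈ Z' := (mem_fixMod.1 (hYa hw)).2 a ha1
        have h2 : a * v' * a⁻¹ * v'⁻¹ ∈ Z' := by
          have e : a * v' * a⁻¹ * v'⁻¹ =
              (a * w * a⁻¹ * w⁻¹) * (w * (a * v * a⁻¹ * v⁻¹) * w⁻¹) := by simp [w, mul_assoc]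
          rw [e]
          exact mul_mem h1 (Subgroup.Normal.conj_mem hZ'n _ ha2 w)
        have h3 := Subgroup.Normal.conj_mem hZ'n _ h2 ω
        simpa [v', mul_assoc] using h3
      have hodd : ∀ p ∈ P, ∀ z ∈ Ω, Odd (orderOf z) → ⁅p, z⁆ ∈ T := by
        intro p hp z hzΩ hz
        set c := ⁅p, z⁆ with hc
        have hcPn : c ∈ Pn := commutator_mem_commutator hp hzΩ
        have hcY : c * v * c⁻¹ * v⁻¹ ∈ Y := hDY (hPY c (hPnP hcPn) v hvY)
        have key : ∀ i : ℕ, ⁅p, z ^ i⁆ ∈ Pn ∧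
            (⁅p, z ^ i⁆ * v * ⁅p, z ^ i⁆⁻¹ * v⁻¹) * (c * v * c⁻¹ * v⁻¹) ^ i ∈ Z' := by
          intro i
          induction i with
          | zero =>
            constructor
            · rw [pow_zero, commutatorElement_one_right]; exact one_mem _
            · rw [pow_zero, pow_zero, commutatorElement_one_right]; simp
          | succ i ih =>
            have hm : ⁅p, z ^ (i + 1)⁆ = c * (z * ⁅p, z ^ i⁆ * z⁻¹) := by
              rw [hc, commutatorElement_def, commutatorElement_def, commutatorElement_def, pow_succ']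
              group
            refine ⟨commutator_mem_commutator hp (pow_mem hzΩ _), ?_⟩
            -- compare with the previous step
            set e := ⁅p, z ^ i⁆
            have he' : z * e * z⁻¹ ∈ Pn := Subgroup.Normal.conj_mem hPnn e ih.1 z
            rw [hm, hhom c hcPn _ he' v hvY]
            set v' := z⁻¹ * v * z
            set w := v' * v⁻¹
            have hw : w ∈ Ya := by
              have h := mem_secKer.1 (hYaY (inv_mem hzΩ)) v hvY
              simpa [w, v', mul_assoc] using h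
            have hwY : w ∈ Y := mul_mem (by
              have h := Subgroup.Normal.conj_mem (inferInstance : Y.Normal) v hvY z⁻¹
              simpa using h) (inv_mem hvY)
            have hev : e * v * e⁻¹ * v⁻¹ ∈ D := hPY e (hPnP ih.1) v hvY
            have h1 : e * w * e⁻¹ * w⁻¹ ∈ Z' := (mem_fixMod.1 (hYa hw)).2 e ih.1
            have hew : e * w * e⁻¹ * w⁻¹ ∈ D := hPY e (hPnP ih.1) w hwY
            have h2 : (z * e * z⁻¹) * v * (z * e * z⁻¹)⁻¹ * v⁻¹ =
                (e * w * e⁻¹ * w⁻¹) * (e * v * e⁻¹ * v⁻¹) := by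
              have e1 : (z * e * z⁻¹) * v * (z * e * z⁻¹)⁻¹ * v⁻¹ =
                  z * ((e * w * e⁻¹ * w⁻¹) * (w * (e * v * e⁻¹ * v⁻¹) * w⁻¹)) * z⁻¹ := by
                simp [w, v', mul_assoc]
              rw [e1, hYc w hwY _ (hDY hev), mul_inv_cancel_right]
              have h := mem_centralizer_iff.1 (hΩD hzΩ) _ (mul_mem hew hev)
              rw [← h, mul_inv_cancel_right]
            rw [h2]
            set fc := c * v * c⁻¹ * v⁻¹
            set fe := e * v * e⁻¹ * v⁻¹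
            set fw := e * w * e⁻¹ * w⁻¹
            have e2 : fc * (fw * fe) * fc ^ (i + 1) = fw * (fe * fc ^ i) := by
              rw [hYc fc hcY _ (mul_mem (hDY hew) (hDY hev)), pow_succ', mul_assoc, ← mul_assoc fc fc,
                H83.mul_self_of_elementary hY hcY, one_mul, mul_assoc]
            rw [e2]
            exact mul_mem h1 ih.2
        have h := (key (orderOf z)).2
        obtain ⟨j, hj⟩ := hz
        rw [pow_orderOf_eq_one, commutatorElement_one_right, one_mul, inv_one, mul_one, mul_inv_cancel,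
          one_mul, hj, pow_succ, pow_mul, show (c * v * c⁻¹ * v⁻¹) ^ 2 = 1 from hY.2 _ hcY, one_pow,
          one_mul] at h
        exact (hT c).2 ⟨hcPn, h⟩
      have hle : Pn ≤ T := by
        refine commutator_le.2 fun p hp ω hω => ?_
        have hω' : ω ∈ closure {g : G | Nat.Coprime (orderOf g) 2} := hω
        induction hω' using closure_induction with
        | mem z hz => exact hodd p hp z hω (Nat.coprime_two_right.1 hz)
        | one => rw [commutatorElement_one_right]; exact one_mem _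
        | mul a c ha hc iha ihc =>
          have e : ⁅p, a * c⁆ = ⁅p, a⁆ * (a * ⁅p, c⁆ * a⁻¹) := by
            rw [commutatorElement_def, commutatorElement_def, commutatorElement_def]; group
          rw [e]
          exact mul_mem (iha ha) (hinv a ha _ (ihc hc))
        | inv a ha iha =>
          have e : ⁅p, a⁻¹⁆ = a⁻¹ * ⁅p, a⁆⁻¹ * a⁻¹⁻¹ := by
            rw [commutatorElement_def, commutatorElement_def]; group
          rw [e]
          exact hinv a⁻¹ (inv_mem ha) _ (inv_mem (iha ha))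
      exact mem_fixMod.2 ⟨hvY, fun a ha => ((hT a).1 (hle ha)).2⟩
    refine hZ'lt.not_ge (commutator_le.2 fun a ha y hy => ?_)
    rw [commutatorElement_def]
    exact (mem_fixMod.1 (hYKd hy)).2 a ha
  have hKdD : Kd ≤ D := by
    have hΩ1 : Ω ≤ Cfsg.sectionKernel Kd (Kd ⊓ Ya) := fun ω hω => mem_secKer.2 fun y hy =>
      ⟨Kd.mul_mem (Subgroup.Normal.conj_mem hKdn y hy ω) (Kd.inv_mem hy),
        mem_secKer.1 (hYaY hω) y (fixMod_le _ _ _ hy)⟩
    have hΩ2 : Ω ≤ Cfsg.sectionKernel (Kd ⊓ Ya) ⊥ :=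
      le_secKer_bot_iff.2 (hmin _ inferInstance inf_le_right fun h => hYaKd (h.ge.trans inf_le_left))
    have h := le_secKer_bot_iff.1 (pResidual_trans
      ((H83.isPGroup_elementary hY).to_le (fixMod_le _ _ _)) inf_le_left hΩ1 hΩ2)
    rw [hD]
    exact le_inf (fixMod_le _ _ _) (le_centralizer_iff.1 h)
  -- counting
  set R0 := R ⊓ centralizer (V : Set G) with hR0
  have hVel := hV.2.2.1
  have hstep : ∀ U : Subgroup G, R0 ≤ U → U ≤ R → (fixMod U V Z').relIndex V ≤ R0.relIndex U → ∀ r ∈ R,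
      r ∉ U → (fixMod (U ⊔ zpowers r) V Z').relIndex V ≤ R0.relIndex (U ⊔ zpowers r) := by
    intro U hR0U hUR hUle r hr hrU
    rw [fixMod_sup, ← relIndex_mul_relIndex R0 U (U ⊔ zpowers r) hR0U le_sup_left]
    refine relIndex_inf_le.trans (Nat.mul_le_mul hUle ?_)
    have h2 : 2 ≤ U.relIndex (U ⊔ zpowers r) := (Nat.two_le_iff _).2
      ⟨Subgroup.index_ne_zero_of_finite, fun h =>
        hrU (relIndex_eq_one.1 h (mem_sup_right (mem_zpowers r)))⟩
    refine le_trans ?_ h2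
    obtain ⟨x, hx, c, hc, hxc⟩ : ∃ x ∈ Pn, ∃ c ∈ C, r = x * c := by
      have h : r ∈ Pn ⊔ C := by rw [sup_comm]; exact hr.2
      rw [← SetLike.mem_coe, Subgroup.mul_normal, Set.mem_mul] at h
      obtain ⟨x, hx, c, hc, e⟩ := h
      exact ⟨x, hx, c, hc, e.symm⟩
    let ρ : ↥V →* G := MonoidHom.mk' (fun v => r * (v : G) * r⁻¹ * (v : G)⁻¹) fun v v' => by
      have h1 : r * (v' : G) * r⁻¹ * (v' : G)⁻¹ ∈ Y :=
        mul_mem (Subgroup.Normal.conj_mem inferInstance _ (hVY v'.2) r) (inv_mem (hVY v'.2))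
      show r * ((v : G) * v') * r⁻¹ * ((v : G) * v')⁻¹ =
        (r * (v : G) * r⁻¹ * (v : G)⁻¹) * (r * (v' : G) * r⁻¹ * (v' : G)⁻¹)
      calc r * ((v : G) * v') * r⁻¹ * ((v : G) * v')⁻¹
          = (r * (v : G) * r⁻¹) * (r * (v' : G) * r⁻¹ * (v' : G)⁻¹) * (v : G)⁻¹ := by group
        _ = (r * (v : G) * r⁻¹) * ((r * (v' : G) * r⁻¹ * (v' : G)⁻¹) * (v : G)⁻¹) := by group
        _ = _ := by rw [hYc _ h1 _ (inv_mem (hVY v.2))]; group
    have he : (fixMod (zpowers r) V Z').subgroupOf V = Z'.comap ρ := by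
      ext v
      rw [mem_subgroupOf, mem_fixMod, mem_comap]
      refine ⟨fun h => h.2 r (mem_zpowers r), fun h => ⟨v.2, fun a ha => ?_⟩⟩
      have hle : zpowers r ≤ (centralizer ({QuotientGroup.mk' Z' (v : G)} : Set (G ⧸ Z'))).comap
          (QuotientGroup.mk' Z') := zpowers_le.2 (mem_centralizer_singleton_iff.2 (commutator_mem_iff.1 h))
      exact commutator_mem_iff.2 (mem_centralizer_singleton_iff.1 (hle ha))
    rw [relIndex, he, index_comap]
    refine (relIndex_le_of_le_right ?_ Subgroup.index_ne_zero_of_finite).trans hidx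
    rintro _ ⟨v, rfl⟩
    show r * (v : G) * r⁻¹ * (v : G)⁻¹ ∈ Z1
    rw [hxc, show x * c * (v : G) * (x * c)⁻¹ = x * (c * (v : G) * c⁻¹) * x⁻¹ by group,
      hCfix c hc _ (hVY v.2), ← commutatorElement_def]
    exact commutator_mem_commutator hx (hVY v.2)
  have hfin : (fixMod R V Z').relIndex V ≤ R0.relIndex R := by
    obtain ⟨U, -, hU⟩ := Finite.exists_le_maximal
      (p := fun U : Subgroup G => R0 ≤ U ∧ U ≤ R ∧ (fixMod U V Z').relIndex V ≤ R0.relIndex U) (a := R0)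
      ⟨le_rfl, inf_le_left, by
        rw [relIndex_self]
        refine le_of_eq (relIndex_eq_one.2 fun v hv => mem_fixMod.2 ⟨hv, fun a ha => ?_⟩)
        rw [← mem_centralizer_iff.1 ha.2 v hv, mul_inv_cancel_right, mul_inv_cancel]
        exact one_mem _⟩
    obtain ⟨h1, h2, h3⟩ := hU.prop
    suffices hUR : R ≤ U by rwa [le_antisymm h2 hUR] at h3
    intro r hr
    by_contra hrU
    exact hrU (hU.le_of_ge ⟨h1.trans le_sup_left, sup_le h2 (zpowers_le.2 hr), hstep U h1 h2 h3 r hr hrU⟩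
      le_sup_left (mem_sup_right (mem_zpowers r)))
  have hle : fixMod R V Z' ≤ V ⊓ centralizer (R : Set G) := by
    intro v hv
    obtain ⟨hvV, hv'⟩ := mem_fixMod.1 hv
    have hvD : v ∈ D := hKdD (mem_fixMod.2 ⟨hVY hvV, fun x hx => by
      have h : x ∈ R ⊔ C := by rw [sup_comm]; exact hCR (mem_sup_right hx)
      rw [← SetLike.mem_coe, Subgroup.mul_normal, Set.mem_mul] at h
      obtain ⟨s, hs, c, hc, rfl⟩ := h
      rw [show s * c * v * (s * c)⁻¹ = s * (c * v * c⁻¹) * s⁻¹ by group, hCfix c hc v (hVY hvV)]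
      exact hv' s hs⟩)
    exact ⟨hvV, mem_centralizer_iff.2 fun r hr => mul_inv_eq_iff_eq_mul.1 (hDfix r hr.2 v hvD)⟩
  have h1 := hV.2.2.2 R inf_le_left hRR hR2 hRV
  have h2 := (relIndex_le_of_le_left (L := V) hle Subgroup.index_ne_zero_of_finite).trans hfin
  rw [← hR0] at h1
  have h3 := Nat.pow_le_pow_left h2 2
  have h4 : R0.relIndex R ^ 2 ≤ R0.relIndex R ^ 3 :=
    Nat.pow_le_pow_right (relIndex_inf_pos _ _) (by norm_num)
  omega

end Cfsg.Agent.H72.EG
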