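import Cfsg.Agent.H72.EG.Transfer
import Cfsg.Agent.H25.PF14.Solvable
import Cfsg.Agent.H34.Thompson
import Mathlib

/-!
The inductive step for overgroups of a Sylow 2-subgroup: if some conjugate of a strong `V` is
moved by `J(S)`, then `S ∩ N ≤ O₂(G)` for every normal `N` with `NS ≠ G`.
-/

set_option autoImplicit false
set_option linter.style.haveILetI false

namespace Cfsg.Agent.H72.EG

open Subgroup
open scoped Pointwise

universe u

/-- The conclusion being proved by induction. -/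
def Fixes (G : Type u) [Group G] [Finite G] : Prop :=
  ∀ (S : Sylow 2 G) (V : Subgroup G), Strong (S : Subgroup G) V → ∀ g : G,
    Cfsg.thompsonSubgroupOf 2 (S : Subgroup G) ≤
      centralizer ((V.map (MulAut.conj g).toMonoidHom : Subgroup G) : Set G)

/-- The induction hypothesis for groups smaller than `G`. -/
def SmallerFixes (G : Type u) [Group G] : Prop :=
  ∀ (H : Type u) [Group H] [Finite H], Nat.card H < Nat.card G →
    centralizer (Cfsg.pCore 2 H : Set H) ≤ Cfsg.pCore 2 H →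
    ¬ Cfsg.Involves (Equiv.Perm (Fin 4)) H → CompK H → Fixes H

variable {G : Type u} [Group G] [Finite G]

omit [Finite G] in
theorem sylTwo_top (S : Sylow 2 G) : H83.SylTwo (S : Subgroup G) ⊤ :=
  ⟨le_top, S.2, fun _ _ hT hle => S.3 hT hle⟩

theorem odd_relIndex_inf (S : Sylow 2 G) (N : Subgroup G) [N.Normal] :
    Odd (((S : Subgroup G) ⊓ N).relIndex N) := by
  haveI : Fact (Nat.Prime 2) := ⟨Nat.prime_two⟩
  obtain ⟨P, hP⟩ := ((sylTwo_top S).inf_normal le_top (normalizer_eq_top (H := N)).ge).exists_sylow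
  rw [relIndex, ← hP, ← Nat.not_even_iff_odd, even_iff_two_dvd]
  exact P.not_dvd_index

/-- The induction hypothesis in an overgroup of the Sylow subgroup. -/
theorem fixes_in (hchar : centralizer (Cfsg.pCore 2 G : Set G) ≤ Cfsg.pCore 2 G)
    (h4 : ¬ Cfsg.Involves (Equiv.Perm (Fin 4)) G) (ih : SmallerFixes G) (S : Sylow 2 G) {V : Subgroup G}
    (hV : Strong (S : Subgroup G) V) {H : Subgroup G} (hSH : (S : Subgroup G) ≤ H) (hH : H ≠ ⊤)
    (hKH : CompK ↥H) {h : G} (hh : h ∈ H) :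
    Cfsg.thompsonSubgroupOf 2 (S : Subgroup G) ≤
      centralizer ((V.map (MulAut.conj h).toMonoidHom : Subgroup G) : Set G) := by
  haveI : Fact (Nat.Prime 2) := ⟨Nat.prime_two⟩
  have hcard : Nat.card H < Nat.card G :=
    lt_of_le_of_ne (card_le_card_group H) fun e => hH (card_eq_iff_eq_top H |>.1 e)
  have hSmap : ((S.subtype hSH : Sylow 2 H) : Subgroup H).map H.subtype = S := by
    rw [Sylow.coe_subtype, map_subgroupOf_eq_of_le hSH]
  have hVmap : (V.subgroupOf H).map H.subtype = V := map_subgroupOf_eq_of_le (hV.1.trans hSH)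
  have hV' : Strong ((S.subtype hSH : Sylow 2 H) : Subgroup H) (V.subgroupOf H) := by
    rw [← strong_map_iff H.subtype_injective, hSmap, hVmap]
    exact hV
  have h1 := ih H hcard (char_two_subgroup hchar ((H19.pCore_le_sylow S).trans hSH))
    (involves_of_subgroup' h4) hKH (S.subtype hSH) (V.subgroupOf H) hV' ⟨h, hh⟩
  rw [← map_le_centralizer_iff H.subtype_injective, map_maxElem H.subtype_injective, hSmap,
    map_map] at h1
  refine h1.trans (le_of_eq ?_)
  congr 2
  conv_rhs => rw [← hVmap, map_map]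
  congr 1

theorem compK_sup_sylow (hK : CompK G) (S : Sylow 2 G) (N : Subgroup G) [N.Normal] :
    CompK ↥((S : Subgroup G) ⊔ N) := by
  haveI : Fact (Nat.Prime 2) := ⟨Nat.prime_two⟩
  set H := (S : Subgroup G) ⊔ N
  refine compK_ext (N := N.subgroupOf H)
    (compK_equiv (compK_normal hK inferInstance) (subgroupOfEquivOfLe (le_sup_right : N ≤ H)).symm) ?_
  have hp : IsPGroup 2 (↥H ⧸ N.subgroupOf H) := by
    intro z
    obtain ⟨⟨x, hx⟩, rfl⟩ := QuotientGroup.mk_surjective z
    have hx' : x ∈ ((S : Subgroup G) : Set G) * (N : Set G) := by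
      rw [← Subgroup.mul_normal]; exact hx
    obtain ⟨s, hs, n, hn, rfl⟩ := Set.mem_mul.1 hx'
    have e : (QuotientGroup.mk ⟨s * n, hx⟩ : ↥H ⧸ N.subgroupOf H) =
        QuotientGroup.mk (⟨s, mem_sup_left hs⟩ : ↥H) :=
      QuotientGroup.eq.2 (mem_subgroupOf.2 (by simpa using inv_mem hn))
    obtain ⟨k, hk⟩ := S.2 ⟨s, hs⟩
    refine ⟨k, ?_⟩
    rw [e, ← QuotientGroup.mk_pow]
    have hk' : (⟨s, mem_sup_left hs⟩ : ↥H) ^ 2 ^ k = 1 := Subtype.ext (by
      have := congrArg Subtype.val hk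
      simpa using this)
    rw [hk', QuotientGroup.mk_one]
  haveI : Group.IsSolvable (↥H ⧸ N.subgroupOf H) := by
    obtain ⟨n, hn⟩ := hp.exists_card_eq
    haveI : Group.IsNilpotent (↥H ⧸ N.subgroupOf H) := hp.isNilpotent
    infer_instance
  exact compK_of_solvable

theorem compK_normalizer (hK : CompK G) (S : Sylow 2 G) (N : Subgroup G) [N.Normal] :
    CompK ↥(normalizer (((S : Subgroup G) ⊓ N : Subgroup G) : Set G)) := by
  haveI : Fact (Nat.Prime 2) := ⟨Nat.prime_two⟩
  set X := (S : Subgroup G) ⊓ N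
  set H := normalizer (X : Set G)
  haveI : (X.subgroupOf H).Normal := normal_in_normalizer
  set M := N.subgroupOf H with hM
  have hXM : X.subgroupOf H ≤ M := fun z hz => mem_subgroupOf.2 (mem_subgroupOf.1 hz).2
  haveI : Group.IsSolvable M := by
    refine isSolvable_of_normal_two (N := (X.subgroupOf H).subgroupOf M) ?_ ?_
      (fun Y _ _ hY => H25.PF14.odd_solvable Y hY)
    · exact (((S.2.to_le inf_le_left : IsPGroup 2 X).of_injective
        (subgroupOfEquivOfLe (le_normalizer : X ≤ H)).toMonoidHom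
        (subgroupOfEquivOfLe (le_normalizer : X ≤ H)).injective)).of_injective
        (subgroupOfEquivOfLe hXM).toMonoidHom (subgroupOfEquivOfLe hXM).injective
    · show Odd ((X.subgroupOf H).relIndex M)
      have h1 : (X.subgroupOf H).relIndex M = X.relIndex (N ⊓ H) := by
        rw [← relIndex_map_map_of_injective _ _ H.subtype_injective,
          map_subgroupOf_eq_of_le le_normalizer, hM, subgroupOf_map_subtype]
      rw [h1]
      refine (odd_relIndex_inf S N).of_dvd_nat ?_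
      exact Dvd.intro _ (relIndex_mul_relIndex X (N ⊓ H) N (le_inf inf_le_right le_normalizer) inf_le_left)
  refine compK_ext (N := M) compK_of_solvable ?_
  let f : ↥H →* G ⧸ N := (QuotientGroup.mk' N).comp H.subtype
  have hf : Function.Surjective f := by
    intro z
    obtain ⟨g, rfl⟩ := QuotientGroup.mk_surjective z
    obtain ⟨n, hn, m, hm, e⟩ := H83.frattini_arg (sylTwo_top S) le_top (normalizer_eq_top (H := N)).ge
      (mem_top g)
    refine ⟨⟨m, hm.2⟩, ?_⟩
    show QuotientGroup.mk' N m = QuotientGroup.mk' N g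
    rw [e, map_mul, show QuotientGroup.mk' N n = 1 from (QuotientGroup.eq_one_iff n).2 hn, one_mul]
  have hker : f.ker = M := by
    ext z
    rw [MonoidHom.mem_ker, hM, mem_subgroupOf]
    exact QuotientGroup.eq_one_iff (z : G)
  have hQ : CompK (↥H ⧸ f.ker) :=
    compK_equiv (compK_of_surjective hK _ (QuotientGroup.mk'_surjective N))
      (QuotientGroup.quotientKerEquivOfSurjective f hf).symm
  exact compK_equiv hQ (QuotientGroup.quotientMulEquivOfEq hker)

/-- If a conjugate of `V` is moved by `J(S)`, then normal subgroups not covering `G` modulo `S`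
meet `S` in `O₂(G)`. -/
theorem inf_sylow_le_pCore (hchar : centralizer (Cfsg.pCore 2 G : Set G) ≤ Cfsg.pCore 2 G)
    (h4 : ¬ Cfsg.Involves (Equiv.Perm (Fin 4)) G) (hK : CompK G) (ih : SmallerFixes G) (S : Sylow 2 G)
    {V : Subgroup G} (hV : Strong (S : Subgroup G) V)
    (hbad : ∃ g : G, ¬ Cfsg.thompsonSubgroupOf 2 (S : Subgroup G) ≤
      centralizer ((V.map (MulAut.conj g).toMonoidHom : Subgroup G) : Set G))
    (N : Subgroup G) [N.Normal] (hN : (S : Subgroup G) ⊔ N ≠ ⊤) :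
    (S : Subgroup G) ⊓ N ≤ Cfsg.pCore 2 G := by
  haveI : Fact (Nat.Prime 2) := ⟨Nat.prime_two⟩
  obtain ⟨g, hg⟩ := hbad
  set X := (S : Subgroup G) ⊓ N with hX
  by_contra hXQ
  set J := Cfsg.thompsonSubgroupOf 2 (S : Subgroup G) with hJ
  set H := normalizer (X : Set G) with hH
  have hH' : H ≠ ⊤ := fun h => hXQ (H19.le_pCore (normalizer_eq_top_iff.1 h) (S.2.to_le inf_le_left))
  have hSH : (S : Subgroup G) ≤ H :=
    H20.le_normalizer_inf le_normalizer (le_top.trans_eq (normalizer_eq_top (H := N)).symm)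
  have hHfix : ∀ h ∈ H, J ≤ centralizer ((V.map (MulAut.conj h).toMonoidHom : Subgroup G) : Set G) :=
    fun h hh => fixes_in hchar h4 ih S hV hSH hH' (compK_normalizer hK S N) hh
  have hNfix : ∀ n ∈ N, J ≤ centralizer ((V.map (MulAut.conj n).toMonoidHom : Subgroup G) : Set G) :=
    fun n hn => fixes_in hchar h4 ih S hV le_sup_left hN (compK_sup_sylow hK S N) (mem_sup_right hn)
  -- the normal closure of `J` in `H` centralises `V`
  set L := closure {z : G | ∃ h ∈ H, ∃ j ∈ J, h * j * h⁻¹ = z} with hL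
  have hLV : L ≤ centralizer (V : Set G) := by
    refine (closure_le _).2 ?_
    rintro _ ⟨h, hh, j, hj, rfl⟩
    refine mem_centralizer_iff.2 fun v hv => ?_
    have h1 := mem_centralizer_iff.1 (hHfix h⁻¹ (inv_mem hh) hj) (h⁻¹ * v * h) ⟨v, hv, by simp⟩
    calc v * (h * j * h⁻¹) = h * ((h⁻¹ * v * h) * j) * h⁻¹ := by group
      _ = h * (j * (h⁻¹ * v * h)) * h⁻¹ := by rw [h1]
      _ = h * j * h⁻¹ * v := by group
  have hJS : J ≤ (S : Subgroup G) := H34.thompsonSubgroupOf_le _
  have hLH : L ≤ H := by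
    refine (closure_le _).2 ?_
    rintro _ ⟨h, hh, j, hj, rfl⟩
    exact mul_mem (mul_mem hh (hSH (hJS hj))) (inv_mem hh)
  have hJL : J ≤ L := fun j hj => subset_closure ⟨1, one_mem _, j, hj, by simp⟩
  have hHL : H ≤ normalizer (L : Set G) := by
    have key : ∀ x ∈ H, ∀ z ∈ L, x * z * x⁻¹ ∈ L := by
      intro x hx z hz
      have hle : L ≤ L.comap (MulAut.conj x).toMonoidHom := by
        refine (closure_le _).2 ?_
        rintro _ ⟨h, hh, j, hj, rfl⟩
        exact subset_closure ⟨x * h, mul_mem hx hh, j, hj, by simp [mul_assoc]⟩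
      exact hle hz
    exact fun x hx => mem_normalizer_iff.2 fun z => ⟨key x hx z, fun hz => by
      simpa [mul_assoc] using key x⁻¹ (inv_mem hx) _ hz⟩
  have hsyl : H83.SylTwo (S : Subgroup G) H := ⟨hSH, S.2, fun T _ hT hle => S.3 hT hle⟩
  have hJeq : Cfsg.thompsonSubgroupOf 2 ((S : Subgroup G) ⊓ L) = J :=
    H34.thompsonSubgroupOf_eq_of_le (le_inf hJS hJL) inf_le_left
  have hNJ : normalizer (((S : Subgroup G) ⊓ L : Subgroup G) : Set G) ≤ normalizer (J : Set G) := by
    rw [← hJeq]; exact H34.normalizer_le_normalizer_thompson _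
  refine hg ?_
  -- write `g = n m` and then `m = l k`
  obtain ⟨n, hn, m, hm, rfl⟩ := H83.frattini_arg (sylTwo_top S) le_top (normalizer_eq_top (H := N)).ge
    (mem_top g)
  obtain ⟨l, hl, k, hk, hlk⟩ := H83.frattini_arg hsyl hLH hHL (H.inv_mem hm.2)
  have hk' : k⁻¹ ∈ normalizer (J : Set G) := inv_mem (hNJ hk.2)
  have hm' : m = k⁻¹ * l⁻¹ := by rw [← mul_inv_rev, ← hlk, inv_inv]
  have hn' : k * n * k⁻¹ ∈ N := Subgroup.Normal.conj_mem inferInstance n hn k
  intro j hj
  refine mem_centralizer_iff.2 ?_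
  rintro _ ⟨v, hv, rfl⟩
  have hj' : k * j * k⁻¹ ∈ J := (mem_normalizer_iff.1 (hNJ hk.2) j).1 hj
  have hlv : l⁻¹ * v * l = v := by
    have h1 := mem_centralizer_iff.1 (hLV (inv_mem hl)) v hv
    rw [← h1]; group
  have h1 := mem_centralizer_iff.1 (hNfix _ hn' hj') ((k * n * k⁻¹) * v * (k * n * k⁻¹)⁻¹) ⟨v, hv, rfl⟩
  show (n * m) * v * (n * m)⁻¹ * j = j * ((n * m) * v * (n * m)⁻¹)
  have e : (n * m) * v * (n * m)⁻¹ = k⁻¹ * ((k * n * k⁻¹) * v * (k * n * k⁻¹)⁻¹) * k := by
    rw [hm']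
    calc n * (k⁻¹ * l⁻¹) * v * (n * (k⁻¹ * l⁻¹))⁻¹ = n * k⁻¹ * (l⁻¹ * v * l) * k * n⁻¹ := by group
      _ = n * k⁻¹ * v * k * n⁻¹ := by rw [hlv]
      _ = _ := by group
  rw [e]
  calc k⁻¹ * (k * n * k⁻¹ * v * (k * n * k⁻¹)⁻¹) * k * j
      = k⁻¹ * ((k * n * k⁻¹ * v * (k * n * k⁻¹)⁻¹) * (k * j * k⁻¹)) * k := by group
    _ = k⁻¹ * ((k * j * k⁻¹) * (k * n * k⁻¹ * v * (k * n * k⁻¹)⁻¹)) * k := by rw [h1]
    _ = _ := by group

end Cfsg.Agent.H72.EG
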