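import Cfsg.Agent.H72.EG.Core
import Cfsg.Agent.H72.EG.Uniform
import Cfsg.Agent.H72.EG.PhiCases
import Mathlib

/-!
`J(S)` centralises every conjugate of a strong subgroup of `S`.
-/

set_option autoImplicit false
set_option linter.style.haveILetI false
open scoped commutatorElement

namespace Cfsg.Agent.H72.EG

open Subgroup
open Cfsg.Agent.H83 (maxElem)

universe u

variable {G : Type u} [Group G] [Finite G]

/-- A conjugate of a strong subgroup which lies in `O₂` commutes with it. -/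
theorem strong_commute (S : Sylow 2 G) {V : Subgroup G} (hV : Strong (S : Subgroup G) V)
    (hVQ : V ≤ Cfsg.pCore 2 G) (g : G) :
    V.map (MulAut.conj g).toMonoidHom ≤ centralizer (V : Set G) := by
  haveI : Fact (Nat.Prime 2) := ⟨Nat.prime_two⟩
  haveI := H19.pCore_normal 2 G
  set cg : G →* G := (MulAut.conj g).toMonoidHom
  have hcg : Function.Injective cg := (MulAut.conj g).injective
  by_contra hne
  have hQS : Cfsg.pCore 2 G ≤ (S : Subgroup G) := H19.pCore_le_sylow S
  have hVel := hV.2.2.1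
  have hV'el : Cfsg.IsElementaryAbelian 2 (V.map cg) := H34.isElementaryAbelian_map hVel cg
  have hV'Q : V.map cg ≤ Cfsg.pCore 2 G := by
    rintro _ ⟨v, hv, rfl⟩
    exact Subgroup.Normal.conj_mem inferInstance v (hVQ hv) g
  have h1 := hV.2.2.2 (V.map cg) (hV'Q.trans hQS) ((commutator_self_eq_bot hV'el).trans_le bot_le)
    (fun r hr => by rw [hV'el.2 r hr]; exact one_mem _) hne
  set R := V.comap cg with hR
  have hVrange : V ≤ cg.range := fun v _ => ⟨g⁻¹ * v * g, by simp [cg, mul_assoc]⟩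
  have hRmap : R.map cg = V := map_comap_eq_self hVrange
  have hRel : Cfsg.IsElementaryAbelian 2 R := by
    refine ⟨⟨⟨fun a b => Subtype.ext (hcg ?_)⟩⟩, fun a ha => hcg ?_⟩
    · rw [Subgroup.coe_mul, Subgroup.coe_mul, map_mul, map_mul]
      exact H83.comm_of_elementary hVel a.2 b.2
    · rw [map_pow, map_one]; exact hVel.2 _ ha
  have hRQ : R ≤ Cfsg.pCore 2 G := fun r hr => by
    have h := Subgroup.Normal.conj_mem (inferInstance : (Cfsg.pCore 2 G).Normal) _ (hVQ (mem_comap.1 hr)) g⁻¹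
    simpa [cg, mul_assoc] using h
  have hne' : ¬ R ≤ centralizer (V : Set G) := fun h => hne <| by
    have h' := (map_le_centralizer_iff hcg R V).2 h
    rw [hRmap] at h'
    exact le_centralizer_iff.1 h'
  have h2 := hV.2.2.2 R (hRQ.trans hQS) ((commutator_self_eq_bot hRel).trans_le bot_le)
    (fun r hr => by rw [hRel.2 r hr]; exact one_mem _) hne'
  rw [← relIndex_map_map_of_injective _ _ hcg, map_centralizer_inf hcg,
    ← relIndex_map_map_of_injective (V ⊓ _) V hcg, map_centralizer_inf hcg, hRmap] at h2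
  set a := (V ⊓ centralizer ((V.map cg : Subgroup G) : Set G)).relIndex V
  set c := (V.map cg ⊓ centralizer (V : Set G)).relIndex (V.map cg)
  have ha : 1 ≤ a := relIndex_inf_pos _ _
  have hc : 1 ≤ c := relIndex_inf_pos _ _
  have h3 : a ^ 2 ≤ a ^ 3 := Nat.pow_le_pow_right ha (by norm_num)
  have h4 : c ^ 2 ≤ c ^ 3 := Nat.pow_le_pow_right hc (by norm_num)
  omega

/-- The inductive step. -/
theorem fixes_step (hchar : centralizer (Cfsg.pCore 2 G : Set G) ≤ Cfsg.pCore 2 G)
    (h4 : ¬ Cfsg.Involves (Equiv.Perm (Fin 4)) G) (hK : CompK G) (ih : SmallerFixes G) : Fixes G := by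
  intro S V hV g₀
  by_contra hg₀
  haveI : Fact (Nat.Prime 2) := ⟨Nat.prime_two⟩
  have h3 : ¬ Cfsg.Involves (Equiv.Perm (Fin 3)) G := H83.not_involves_s3_of_char_two hchar h4
  haveI := H19.pCore_normal 2 G
  set Q := Cfsg.pCore 2 G with hQdef
  have hQS : Q ≤ (S : Subgroup G) := H19.pCore_le_sylow S
  have hVQ : V ≤ Q := strong_le_pCore hchar h4 hK S hV
  let Vc : G → Subgroup G := fun g => V.map (MulAut.conj g).toMonoidHom
  have hmem : ∀ g z, z ∈ Vc g ↔ g⁻¹ * z * g ∈ V := by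
    intro g z
    constructor
    · rintro ⟨v, hv, rfl⟩; simpa [mul_assoc] using hv
    · intro hz; exact ⟨_, hz, by simp [mul_assoc]⟩
  have hVcomp : ∀ g h, (Vc h).map (MulAut.conj g).toMonoidHom = Vc (g * h) := by
    intro g h
    show (V.map _).map _ = V.map _
    rw [Subgroup.map_map]
    congr 1
    ext z; simp [mul_assoc]
  have hVc1 : Vc 1 = V := by
    ext z; rw [hmem]; simp
  set Y := ⨆ g, Vc g with hYdef
  have hVY : V ≤ Y := hVc1.ge.trans (le_iSup Vc 1)
  haveI hYn : Y.Normal := ⟨fun y hy x => by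
    have hle : Y ≤ Y.comap (MulAut.conj x).toMonoidHom := iSup_le fun g => by
      rw [← map_le_iff_le_comap, hVcomp]; exact le_iSup Vc (x * g)
    exact hle hy⟩
  have hYQ : Y ≤ Q := iSup_le fun g => by
    rintro _ ⟨v, hv, rfl⟩
    exact Subgroup.Normal.conj_mem inferInstance v (hVQ hv) g
  have hcommV : ∀ g h, Vc g ≤ centralizer (Vc h : Set G) := by
    intro g h
    have h1 := strong_commute S hV hVQ (h⁻¹ * g)
    have h2 := (map_le_centralizer_iff (f := (MulAut.conj h).toMonoidHom) (MulAut.conj h).injective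
      (Vc (h⁻¹ * g)) V).2 h1
    rwa [hVcomp, mul_inv_cancel_left] at h2
  have hYel : Cfsg.IsElementaryAbelian 2 Y := by
    rw [hYdef, iSup_eq_closure]
    refine H83.elementary_closure ?_ ?_
    · intro x hx y hy
      obtain ⟨g, hxg⟩ := Set.mem_iUnion.1 hx
      obtain ⟨h, hyh⟩ := Set.mem_iUnion.1 hy
      exact (mem_centralizer_iff.1 (hcommV g h hxg) y hyh).symm
    · intro x hx
      obtain ⟨g, hxg⟩ := Set.mem_iUnion.1 hx
      exact H83.mul_self_of_elementary (H34.isElementaryAbelian_map hV.2.2.1 _) hxg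
  have hYY : Y ≤ centralizer (Y : Set G) := fun y hy => mem_centralizer_iff.2 fun z hz =>
    H83.comm_of_elementary hYel hz hy
  set C := centralizer (Y : Set G) with hCdef
  haveI hCn : C.Normal := by rw [hCdef]; infer_instance
  let π := QuotientGroup.mk' C
  set P := (Cfsg.pCore 2 (G ⧸ C)).comap π with hPdef
  haveI hPn : P.Normal := (H19.pCore_normal 2 _).comap π
  have hCP : C ≤ P := fun c hc => by
    rw [hPdef, mem_comap, show π c = 1 from (QuotientGroup.eq_one_iff c).2 hc]; exact one_mem _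
  have hQP : Q ≤ P := by
    rw [hPdef, ← map_le_iff_le_comap]
    exact H19.le_pCore (Subgroup.Normal.map inferInstance π (QuotientGroup.mk'_surjective C))
      ((H19.pCore_isPGroup 2).map π)
  have hPpow : ∀ p ∈ P, ∃ k : ℕ, p ^ 2 ^ k ∈ C := by
    intro p hp
    obtain ⟨k, hk⟩ := H19.pCore_isPGroup (G := G ⧸ C) 2 ⟨π p, hp⟩
    refine ⟨k, (QuotientGroup.eq_one_iff _).1 ?_⟩
    have h := congrArg Subtype.val hk
    rwa [SubmonoidClass.coe_pow, OneMemClass.coe_one, ← map_pow] at h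
  have hPS : P ≤ C ⊔ ((S : Subgroup G) ⊓ P) := le_sup_sylow hPn S hPpow hCP
  have hPV : P ≤ normalizer (V : Set G) := hPS.trans
    (sup_le ((centralizer_le hVY).trans (centralizer_le_normalizer _)) (inf_le_left.trans hV.2.1))
  set T := (S : Subgroup G) ⊓ P with hT
  have hVcT : ∀ g, Vc g ≤ T := fun g => (le_iSup Vc g).trans (le_inf (hYQ.trans hQS) (hYY.trans hCP))
  have hstrong : ∀ g, Strong T (Vc g) := by
    intro g
    obtain ⟨p, hp, m, hm, hpm⟩ := H83.frattini_arg (sylTwo_top S) le_top (normalizer_eq_top (H := P)).ge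
      (mem_top g⁻¹)
    have hg : g = m⁻¹ * p⁻¹ := by rw [← mul_inv_rev, ← hpm, inv_inv]
    have hpV : Vc p⁻¹ = V := mem_normalizer_iff_map_conj_eq.1 (inv_mem (hPV hp))
    have hVg : Vc g = Vc m⁻¹ := by
      conv_rhs => rw [show Vc m⁻¹ = V.map (MulAut.conj m⁻¹).toMonoidHom from rfl, ← hpV, hVcomp, ← hg]
    have hs := (strong_map_iff (f := (MulAut.conj m⁻¹).toMonoidHom) (MulAut.conj m⁻¹).injective).2 hV
    have hTm : T.map (MulAut.conj m⁻¹).toMonoidHom = T := mem_normalizer_iff_map_conj_eq.1 (inv_mem hm.2)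
    rw [hVg]
    refine Strong.mono hs (hVg ▸ hVcT g) ?_
    rw [← hTm]
    exact Subgroup.map_mono inf_le_left
  have hYgen : Y ≤ ⨆ g, Vc g := le_rfl
  -- (i)
  obtain ⟨A, hA, hAP⟩ : ∃ A ∈ maxElem (S : Subgroup G), ¬ A ≤ P := by
    by_contra hall
    push Not at hall
    refine hg₀ ?_
    rw [thompson_eq]
    refine sSup_le fun A hA => ?_
    exact (hstrong g₀).max_le_centralizer (maxElem_of_le inf_le_left (le_inf hA.1 (hall A hA)) hA)
  have hAel := hA.2.1
  -- (u)
  have hu : ∀ (N : Subgroup G) [N.Normal], (S : Subgroup G) ⊔ N ≠ ⊤ → (S : Subgroup G) ⊓ N ≤ P :=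
    fun N _ hN => (inf_sylow_le_pCore hchar h4 hK ih S hV ⟨g₀, hg₀⟩ N hN).trans hQP
  set Ω := Cfsg.pResidual 2 G with hΩdef
  haveI hΩn : Ω.Normal := H50.pResidual_normal 2 G
  have hSΩ : (S : Subgroup G) ⊔ Ω = ⊤ := by
    refine top_le_iff.1 ?_
    refine (le_sup_sylow (K := Ω) (N := ⊤) inferInstance S (fun x _ => ?_) le_top).trans
      (sup_le le_sup_right (inf_le_left.trans le_sup_left))
    obtain ⟨k, hk⟩ := H50.isPGroup_quotient_of_pResidual_le (p := 2) (N := Ω) le_rfl (QuotientGroup.mk x)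
    exact ⟨k, by rwa [← QuotientGroup.mk_pow, QuotientGroup.eq_one_iff] at hk⟩
  have hΩsup : ∀ (N : Subgroup G) [N.Normal], (S : Subgroup G) ⊔ N = ⊤ → Ω ≤ N := by
    intro N _ hN
    have hp : IsPGroup 2 (G ⧸ N) := by
      intro z
      obtain ⟨g, rfl⟩ := QuotientGroup.mk'_surjective N z
      have hz : QuotientGroup.mk' N g ∈ ((S : Subgroup G) ⊔ N).map (QuotientGroup.mk' N) :=
        ⟨g, hN ▸ mem_top g, rfl⟩
      rw [Subgroup.map_sup, (Subgroup.map_eq_bot_iff N).2 (QuotientGroup.ker_mk' N).ge,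
        sup_bot_eq] at hz
      obtain ⟨s, hs, hsz⟩ := hz
      obtain ⟨k, hk⟩ := S.2 ⟨s, hs⟩
      refine ⟨k, ?_⟩
      rw [← hsz, ← map_pow]
      have := congrArg Subtype.val hk
      rw [SubmonoidClass.coe_pow, OneMemClass.coe_one] at this
      rw [this, map_one]
    exact (H50.pResidual_le_ker (QuotientGroup.mk' N) hp).trans (QuotientGroup.ker_mk' N).le
  have hΩA : ∀ (N : Subgroup G) [N.Normal], A ≤ N → Ω ≤ N := by
    intro N _ hAN
    refine hΩsup N ?_
    by_contra hne
    exact hAP fun a ha => hu N hne ⟨hA.1 ha, hAN ha⟩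
  have hΩC : ¬ Ω ≤ C := by
    intro h
    have hnorm : (⊤ : Subgroup G) ≤ normalizer (V : Set G) := hSΩ ▸ sup_le hV.2.1
      (h.trans ((centralizer_le hVY).trans (centralizer_le_normalizer _)))
    refine hg₀ ?_
    have e : V.map (MulAut.conj g₀).toMonoidHom = V :=
      mem_normalizer_iff_map_conj_eq.1 (hnorm (mem_top g₀))
    rw [e]
    exact hV.thompson_le_centralizer
  set b := (A ⊓ P).relIndex A with hb
  have hb2 : 2 ≤ b := two_le_relIndex_inf hAP
  -- exchange
  have hexch : ∀ X : Subgroup G, X ≤ Y → (X ⊓ centralizer (A : Set G)).relIndex X ≤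
      (A ⊓ centralizer (X : Set G)).relIndex A := fun X hX =>
    H83.exchange hA (H34.isElementaryAbelian_mono hYel hX) (hX.trans (hYQ.trans hQS))
  -- chief sections
  have hsec : ∀ (X W : Subgroup G) [X.Normal] [W.Normal], W < X → X ≤ Y →
      (∀ N : Subgroup G, N.Normal → W ≤ N → N ≤ X → N = W ∨ N = X) →
      ¬ Ω ≤ Cfsg.sectionKernel X W →
      P ≤ Cfsg.sectionKernel X W ∧ b ^ 2 ≤ (fixMod A X W).relIndex X := by
    intro X W _ _ hWX hXY hchief hΩX
    have hXel := H34.isElementaryAbelian_mono hYel hXY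
    have hCker : C ≤ Cfsg.sectionKernel X W := fun c hc => mem_secKer.2 fun x hx => by
      rw [← mem_centralizer_iff.1 hc x (hXY hx), mul_inv_cancel_right, mul_inv_cancel]
      exact one_mem _
    have hPker : P ≤ Cfsg.sectionKernel X W := by
      obtain ⟨x, hx, hxW, hfix⟩ := exists_fixed_section (L := P) hXel hWX
        (le_top.trans (normalizer_eq_top (H := X)).ge) (le_top.trans (normalizer_eq_top (H := W)).ge)
        (fun p hp => by
          obtain ⟨k, hk⟩ := hPpow p hp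
          exact ⟨k, mem_secKer.1 (hCker hk)⟩)
      rw [le_secKer_iff]
      refine le_of_eq ((hchief (fixMod P X W) (fixMod_normal hPn inferInstance) (fun w hw =>
        mem_fixMod.2 ⟨hWX.le hw, fun p _ =>
          mul_mem (Subgroup.Normal.conj_mem inferInstance w hw p) (inv_mem hw)⟩)
        (fixMod_le _ _ _)).resolve_left fun he => hxW (he.le (mem_fixMod.2 ⟨hx, hfix⟩))).symm
    refine ⟨hPker, ?_⟩
    haveI : (Cfsg.sectionKernel X W).Normal := secKer_normal inferInstance
    have hne : (S : Subgroup G) ⊔ Cfsg.sectionKernel X W ≠ ⊤ := fun h => hΩX (hΩsup _ h)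
    have he : A ⊓ Cfsg.sectionKernel X W = A ⊓ P :=
      le_antisymm (le_inf inf_le_left ((le_inf (inf_le_left.trans hA.1) inf_le_right).trans (hu _ hne)))
        (inf_le_inf_left _ hPker)
    have h := chief_bound (X := X) (W := W) (A := A) (F := fixMod A X W) inferInstance hXel hWX hchief
      h3 hK (fun a ha => H83.mul_self_of_elementary hAel ha) (fun x => mem_fixMod)
    rwa [← inf_relIndex_left A, he] at h
  have hsel : ∀ (X W : Subgroup G) [X.Normal] [W.Normal], W ≤ X → X ≤ Y →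
      ¬ Ω ≤ Cfsg.sectionKernel X W →
      ∃ (X1 X1' : Subgroup G) (_ : X1.Normal) (_ : X1'.Normal), W ≤ X1' ∧ X1' < X1 ∧ X1 ≤ X ∧
        (∀ N : Subgroup G, N.Normal → X1' ≤ N → N ≤ X1 → N = X1' ∨ N = X1) ∧
        ¬ Ω ≤ Cfsg.sectionKernel X1 X1' ∧
        (∀ N : Subgroup G, N.Normal → W ≤ N → N ≤ X1 → N ≠ X1 → Ω ≤ Cfsg.sectionKernel N W) ∧
        Ω ≤ Cfsg.sectionKernel X1' W := by
    intro X W hXn hWn hWX hXY hne
    obtain ⟨X1, ⟨hX1n, hWX1, hX1X, hX1ne⟩, hmin⟩ := Set.exists_min_image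
      {N : Subgroup G | N.Normal ∧ W ≤ N ∧ N ≤ X ∧ ¬ Ω ≤ Cfsg.sectionKernel N W}
      (fun N => Nat.card N) (Set.toFinite _) ⟨X, hXn, hWX, le_rfl, hne⟩
    haveI := hX1n
    have hmin' : ∀ N : Subgroup G, N.Normal → W ≤ N → N ≤ X1 → N ≠ X1 →
        Ω ≤ Cfsg.sectionKernel N W := by
      intro N hNn hWN hNX hNne
      by_contra h
      exact hNne (eq_of_le_of_card_ge hNX (hmin N ⟨hNn, hWN, hNX.trans hX1X, h⟩))
    have hlt : fixMod Ω X1 W < X1 := (fixMod_le _ _ _).lt_of_ne fun he => hX1ne (le_secKer_iff.2 he.ge)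
    haveI hfn : (fixMod Ω X1 W).Normal := fixMod_normal hΩn inferInstance
    have hWf : W ≤ fixMod Ω X1 W := fun w hw => mem_fixMod.2 ⟨hWX1 hw, fun a _ =>
      mul_mem (Subgroup.Normal.conj_mem inferInstance w hw a) (inv_mem hw)⟩
    have hΩf : Ω ≤ Cfsg.sectionKernel (fixMod Ω X1 W) W := fun a ha =>
      mem_secKer.2 fun x hx => (mem_fixMod.1 hx).2 a ha
    refine ⟨X1, fixMod Ω X1 W, hX1n, hfn, hWf, hlt, hX1X, fun N hNn h1 h2 => ?_, fun h => hX1ne ?_,
      hmin', hΩf⟩
    · by_cases hN : N = X1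
      · exact Or.inr hN
      · refine Or.inl (le_antisymm (fun x hx => mem_fixMod.2 ⟨h2 hx, fun a ha => ?_⟩) h1)
        exact mem_secKer.1 (hmin' N hNn (hWf.trans h1) h2 hN ha) x hx
    · exact pResidual_trans ((H83.isPGroup_elementary hYel).to_le (hX1X.trans hXY)) hlt.le h hΩf
  -- fixed points of `P`
  have hY0 : Ω ≤ centralizer ((Y ⊓ centralizer (P : Set G) : Subgroup G) : Set G) := by
    by_contra h
    obtain ⟨X1, X1', hX1n, hX1'n, -, hlt, hX1X, hchief, hne, -, -⟩ :=
      hsel (Y ⊓ centralizer (P : Set G)) ⊥ bot_le inf_le_left (fun h' => h (le_secKer_bot_iff.1 h'))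
    have h1 := (hsec X1 X1' hlt (hX1X.trans inf_le_left) hchief hne).2
    have h2 : (fixMod A X1 X1').relIndex X1 ≤ (X1 ⊓ centralizer (A : Set G)).relIndex X1 :=
      relIndex_le_of_le_left (fun x hx => mem_fixMod.2 ⟨hx.1, fun a ha => by
        rw [mem_centralizer_iff.1 hx.2 a ha, mul_inv_cancel_right, mul_inv_cancel]
        exact one_mem _⟩) Subgroup.index_ne_zero_of_finite
    have h5 : (A ⊓ centralizer (X1 : Set G)).relIndex A ≤ b :=
      relIndex_le_of_le_left (inf_le_inf_left _ (le_centralizer_iff.1 (hX1X.trans inf_le_right)))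
        Subgroup.index_ne_zero_of_finite
    have h6 := (h1.trans h2).trans ((hexch X1 (hX1X.trans inf_le_left)).trans h5)
    rw [pow_two] at h6
    have h7 : 2 * b ≤ b * b := Nat.mul_le_mul_right b hb2
    omega
  have hPΩ : ¬ ⁅P, Ω⁆ ≤ C := fun h =>
    hΩC (pResidual_le_centralizer_of_commute hYel hPpow hY0 h)
  -- the bottom section
  obtain ⟨Ya, Yb, hYan, hYbn, -, hYlt, hYaY, hYchief, hYane, hYamin, hΩYb⟩ :=
    hsel Y ⊥ bot_le le_rfl (fun h => hΩC (le_secKer_bot_iff.1 h))
  obtain ⟨hPYa, hbYa⟩ := hsec Ya Yb hYlt hYaY hYchief hYane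
  by_cases hcase : Ω ≤ Cfsg.sectionKernel Y Ya
  · -- case one
    set D := Y ⊓ centralizer (Ω : Set G) with hD
    haveI hDn : D.Normal := inferInstance
    have hYbD : Yb ≤ D :=
      le_inf (hYlt.le.trans hYaY) (le_centralizer_iff.1 (le_secKer_bot_iff.1 hΩYb))
    have hYZ : Y ≤ V ⊔ (Ya ⊔ D) := by
      have hYs : Ya ⊔ D ≤ Y := sup_le hYaY inf_le_left
      set Z := V ⊔ (Ya ⊔ D)
      have hZY : Z ≤ Y := sup_le hVY hYs
      haveI : Z.Normal := by
        rw [← normalizer_eq_top_iff, eq_top_iff, ← hSΩ]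
        refine sup_le (le_normalizer_sup hV.2.1 (le_top.trans (normalizer_eq_top (H := Ya ⊔ D)).ge)) ?_
        have key : ∀ ω ∈ Ω, ∀ z ∈ Z, ω * z * ω⁻¹ ∈ Z := by
          intro ω hω z hz
          have h := mem_secKer.1 (hcase hω) z (hZY hz)
          have := mul_mem (mem_sup_right (S := V) (mem_sup_left (T := D) h)) hz
          simpa using this
        exact fun ω hω => mem_normalizer_iff.2 fun z => ⟨key ω hω z, fun hz => by
          simpa [mul_assoc] using key ω⁻¹ (inv_mem hω) _ hz⟩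
      refine iSup_le fun g => ?_
      rintro _ ⟨v, hv, rfl⟩
      exact Subgroup.Normal.conj_mem inferInstance v (mem_sup_left hv) g
    have hPYs : Ya ⊔ D ≤ fixMod P (Ya ⊔ D) D := sup_le
      (fun y hy => mem_fixMod.2 ⟨mem_sup_left hy, fun p hp => hYbD (mem_secKer.1 (hPYa hp) y hy)⟩)
      (fun y hy => mem_fixMod.2 ⟨mem_sup_right hy, fun p _ =>
        mul_mem (Subgroup.Normal.conj_mem inferInstance y hy p) (inv_mem hy)⟩)
    set U := ⁅P, Y⁆ ⊔ D with hU
    haveI hUn : U.Normal := inferInstance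
    have hUY : U ≤ Y := sup_le (commutator_le_right _ _) inf_le_left
    have hUVD : U ≤ V ⊔ D := by
      refine sup_le (commutator_le.2 fun p hp y hy => ?_) le_sup_right
      have hy' : y ∈ V ⊔ (Ya ⊔ D) := hYZ hy
      rw [← SetLike.mem_coe, Subgroup.mul_normal, Set.mem_mul] at hy'
      obtain ⟨v, hv, w, hw, rfl⟩ := hy'
      have e : ⁅p, v * w⁆ = (p * v * p⁻¹ * v⁻¹) * (v * (p * w * p⁻¹ * w⁻¹) * v⁻¹) := by
        rw [commutatorElement_def]; group
      rw [e]
      refine mul_mem (mem_sup_left (V.mul_mem ((mem_normalizer_iff.1 (hPV hp) v).1 hv) (V.inv_mem hv)))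
        (mem_sup_right (Subgroup.Normal.conj_mem inferInstance _ ((mem_fixMod.1 (hPYs hw)).2 p hp) v))
    have hΩU : Ω ≤ Cfsg.sectionKernel U D := by
      haveI : (Cfsg.sectionKernel U D).Normal := secKer_normal hUn
      refine hΩA _ fun a ha => mem_secKer.2 fun y hy => ?_
      have hle : V ⊔ D ≤ fixMod A Y D := sup_le
        (fun v hv => mem_fixMod.2 ⟨hVY hv, fun x hx => by
          rw [← mem_centralizer_iff.1 (hV.max_le_centralizer hA hx) v hv, mul_inv_cancel_right,
            mul_inv_cancel]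
          exact one_mem _⟩)
        (fun d hd => mem_fixMod.2 ⟨hd.1, fun x _ =>
          mul_mem (Subgroup.Normal.conj_mem inferInstance d hd x) (inv_mem hd)⟩)
      exact (mem_fixMod.1 (hle (hUVD hy))).2 a ha
    have hUD : U ≤ D := le_inf hUY <| le_centralizer_iff.1 <| le_secKer_bot_iff.1 <|
      pResidual_trans ((H83.isPGroup_elementary hYel).to_le hUY) le_sup_right hΩU
        (le_secKer_bot_iff.2 (le_centralizer_iff.1 inf_le_right))
    refine case_one (C := C) (P := P) (Ya := Ya) (D := D) hV hVY hYel rfl (fun N hNn hNV => ?_) hCP hPpow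
      rfl (fun p hp y hy => hUD (mem_sup_left (by
        rw [← commutatorElement_def]; exact commutator_mem_commutator hp hy))) hYZ hcase
      (fun N hNn hNY hne => le_secKer_bot_iff.1 (hYamin N hNn bot_le hNY hne)) hPΩ
    refine le_centralizer_iff.1 (iSup_le fun g => ?_)
    rintro _ ⟨v, hv, rfl⟩
    refine mem_centralizer_iff.2 fun n hn => ?_
    have h1 := mem_centralizer_iff.1 (hNV (Subgroup.Normal.conj_mem hNn n hn g⁻¹)) v hv
    show n * (g * v * g⁻¹) = g * v * g⁻¹ * n
    calc n * (g * v * g⁻¹) = g * ((g⁻¹ * n * g⁻¹⁻¹) * v) * g⁻¹ := by group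
      _ = g * (v * (g⁻¹ * n * g⁻¹⁻¹)) * g⁻¹ := by rw [h1]
      _ = _ := by group
  · -- case two
    obtain ⟨X2, X2', hX2n, hX2'n, hYaX2', hlt2, hX2Y, hchief2, hne2, -, -⟩ := hsel Y Ya hYaY le_rfl hcase
    have h2 := (hsec X2 X2' hlt2 hX2Y hchief2 hne2).2
    set K := Y ⊓ centralizer (A : Set G) with hKdef
    have hKfix : ∀ (X W : Subgroup G) [W.Normal], X ≤ Y → K ⊓ X ≤ fixMod A X W := fun X W _ hX x hx =>
      mem_fixMod.2 ⟨hx.2, fun a ha => by
        rw [mem_centralizer_iff.1 hx.1.2 a ha, mul_inv_cancel_right, mul_inv_cancel]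
        exact one_mem _⟩
    set Bd := (A ⊓ P ⊓ centralizer (Y : Set G)).relIndex (A ⊓ P)
    have hbig : b ^ 2 * b ^ 2 ≤ K.relIndex Y := by
      set U2 := (K ⊓ X2) ⊔ Ya
      have hU2 : U2 ≤ X2 := sup_le inf_le_right (hYaX2'.trans hlt2.le)
      have e1 := relIndex_mul_relIndex (K ⊓ X2) U2 X2 le_sup_left hU2
      have h1' : b ^ 2 ≤ (K ⊓ X2).relIndex U2 := by
        refine hbYa.trans (le_trans ?_ (relIndex_le_of_le_right (le_sup_right : Ya ≤ U2)
          Subgroup.index_ne_zero_of_finite))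
        rw [← inf_relIndex_right (K ⊓ X2) Ya]
        exact relIndex_le_of_le_left (fun x hx => hKfix Ya Yb hYaY ⟨hx.1.1, hx.2⟩)
          Subgroup.index_ne_zero_of_finite
      have h2' : b ^ 2 ≤ U2.relIndex X2 := h2.trans (relIndex_le_of_le_left
        (sup_le (hKfix X2 X2' hX2Y) (fun y hy => mem_fixMod.2 ⟨hlt2.le (hYaX2' hy), fun a _ =>
          mul_mem (Subgroup.Normal.conj_mem inferInstance y (hYaX2' hy) a) (inv_mem (hYaX2' hy))⟩))
        Subgroup.index_ne_zero_of_finite)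
      refine (Nat.mul_le_mul h1' h2').trans (e1.le.trans ?_)
      rw [inf_relIndex_right]
      exact relIndex_le_of_le_right hX2Y Subgroup.index_ne_zero_of_finite
    have hKb : K.relIndex Y ≤ Bd * b := by
      refine (hexch Y le_rfl).trans (le_of_eq ?_)
      have he : A ⊓ centralizer (Y : Set G) = A ⊓ P ⊓ centralizer (Y : Set G) :=
        le_antisymm (le_inf (le_inf inf_le_left (inf_le_right.trans hCP)) inf_le_right)
          (inf_le_inf_right _ inf_le_left)
      rw [he, ← relIndex_mul_relIndex _ (A ⊓ P) A inf_le_left inf_le_left]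
    have hB : Bd ^ 3 < K.relIndex Y ^ 2 ∨ Bd = 1 := by
      by_cases hBY : A ⊓ P ≤ centralizer (Y : Set G)
      · right
        show (A ⊓ P ⊓ centralizer (Y : Set G)).relIndex (A ⊓ P) = 1
        rw [inf_eq_left.2 hBY, relIndex_self]
      · left
        refine lt_of_lt_of_le (strong_seq_bound Vc hstrong (fun g => le_iSup Vc g) hYgen
          (inf_le_inf_right _ hA.1) (H34.isElementaryAbelian_mono hAel inf_le_left) hBY) ?_
        exact Nat.pow_le_pow_left (relIndex_le_of_le_left (inf_le_inf_left _ (centralizer_le inf_le_left))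
          Subgroup.index_ne_zero_of_finite) 2
    have hb3 : b ^ 3 ≤ Bd := by
      refine Nat.le_of_mul_le_mul_right ?_ (show 0 < b by omega)
      calc b ^ 3 * b = b ^ 2 * b ^ 2 := by ring
        _ ≤ _ := hbig.trans hKb
    have hb8 : b ^ 2 < b ^ 3 := Nat.pow_lt_pow_right (by omega) (by norm_num)
    rcases hB with hB | hB
    · have h5 : Bd ^ 3 < (Bd * b) ^ 2 := hB.trans_le (Nat.pow_le_pow_left hKb 2)
      have h6 : Bd < b ^ 2 := by
        rw [mul_pow, pow_succ] at h5
        exact Nat.lt_of_mul_lt_mul_left h5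
      omega
    · have := Nat.one_le_pow 2 b (by omega)
      omega

/-- `J(S)` centralises every conjugate of a strong subgroup. -/
theorem fixes_all : ∀ (n : ℕ) (H : Type u) [Group H] [Finite H], Nat.card H = n →
    centralizer (Cfsg.pCore 2 H : Set H) ≤ Cfsg.pCore 2 H →
    ¬ Cfsg.Involves (Equiv.Perm (Fin 4)) H → CompK H → Fixes H := by
  intro n
  induction n using Nat.strong_induction_on with
  | _ n ih =>
    intro H _ _ hn hchar h4 hK
    exact fixes_step hchar h4 hK fun X _ _ hX => ih _ (hn ▸ hX) X rfl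

end Cfsg.Agent.H72.EG
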