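import Cfsg.Agent.H72.EG.EGroup
import Cfsg.Agent.H72.EG.Composition
import Cfsg.Agent.H83.Section
import Cfsg.Agent.H20.External
import Cfsg.Agent.H19.Cores
import Cfsg.Agent.H34.SuzOffender.Main
import Cfsg.Agent.H50.PResidualBasics
import Cfsg.Prelude.Def_PLocal
import Mathlib

/-!
Normal sections inside an elementary abelian normal subgroup.
-/

set_option autoImplicit false
set_option linter.style.haveILetI false

namespace Cfsg.Agent.H72.EG

open Subgroup

universe u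

variable {G : Type u} [Group G]

theorem mem_secKer {K N : Subgroup G} [N.Normal] {g : G} :
    g ∈ Cfsg.sectionKernel K N ↔ ∀ x ∈ K, g * x * g⁻¹ * x⁻¹ ∈ N := by
  rw [Cfsg.sectionKernel, mem_comap, mem_centralizer_iff]
  constructor
  · intro h x hx
    have h1 := h _ ⟨x, hx, rfl⟩
    rw [← QuotientGroup.eq_one_iff, ← QuotientGroup.mk'_apply, map_mul, map_mul, map_mul, map_inv, map_inv,
      ← h1]
    group
  · rintro h _ ⟨x, hx, rfl⟩
    have h1 := (QuotientGroup.eq_one_iff _).2 (h x hx)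
    rw [← QuotientGroup.mk'_apply, map_mul, map_mul, map_mul, map_inv, map_inv, mul_inv_eq_one,
      mul_inv_eq_iff_eq_mul] at h1
    exact h1.symm

theorem secKer_normal {K N : Subgroup G} [N.Normal] (hK : K.Normal) :
    (Cfsg.sectionKernel K N).Normal := by
  haveI := hK.map (QuotientGroup.mk' N) (QuotientGroup.mk'_surjective N)
  unfold Cfsg.sectionKernel
  infer_instance

variable [Finite G]

/-- A normal subgroup which is a 2-group modulo `K` is generated by `K` and its Sylow part. -/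
theorem le_sup_sylow {K N : Subgroup G} [K.Normal] (hN : N.Normal) (S : Sylow 2 G)
    (h : ∀ x ∈ N, ∃ k : ℕ, x ^ 2 ^ k ∈ K) (hKN : K ≤ N) :
    N ≤ K ⊔ ((S : Subgroup G) ⊓ N) := by
  haveI : Fact (Nat.Prime 2) := ⟨Nat.prime_two⟩
  have hp : IsPGroup 2 ↥(N.map (QuotientGroup.mk' K)) := by
    rintro ⟨_, x, hx, rfl⟩
    obtain ⟨k, hk⟩ := h x hx
    refine ⟨k, Subtype.ext ?_⟩
    rw [SubmonoidClass.coe_pow, ← map_pow]
    exact (QuotientGroup.eq_one_iff _).2 hk
  have h2 : N.map (QuotientGroup.mk' K) ≤ (S : Subgroup G).map (QuotientGroup.mk' K) := by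
    refine le_trans (H19.le_pCore (hN.map _ (QuotientGroup.mk'_surjective K)) hp) ?_
    simpa using H19.pCore_le_sylow (S.mapSurjective (QuotientGroup.mk'_surjective K))
  intro x hx
  have h3 := map_le_iff_le_comap.1 h2 hx
  rw [comap_map_eq, QuotientGroup.ker_mk', ← SetLike.mem_coe, Subgroup.mul_normal, Set.mem_mul] at h3
  obtain ⟨s, hs, k, hk, rfl⟩ := h3
  have hsN : s ∈ N := by simpa using N.mul_mem hx (N.inv_mem (hKN hk))
  exact mul_mem (mem_sup_right ⟨hs, hsN⟩) (mem_sup_left hk)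

/-- A 2-group fixes a point outside a subgroup of a 2-group, modulo it. -/
theorem exists_fixed_section {L X W : Subgroup G} (hX : Cfsg.IsElementaryAbelian 2 X) (hWX : W < X)
    (hLX : L ≤ normalizer (X : Set G)) (hLW : L ≤ normalizer (W : Set G))
    (hL : ∀ l ∈ L, ∃ k : ℕ, ∀ x ∈ X, l ^ 2 ^ k * x * (l ^ 2 ^ k)⁻¹ * x⁻¹ ∈ W) :
    ∃ x ∈ X, x ∉ W ∧ ∀ l ∈ L, l * x * l⁻¹ * x⁻¹ ∈ W := by
  haveI : Fact (Nat.Prime 2) := ⟨Nat.prime_two⟩
  haveI : IsMulCommutative X := hX.1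
  haveI : (W.subgroupOf X).Normal := inferInstance
  let φ := H83.secAct hLX hLW
  have hp : IsPGroup 2 φ.range := by
    rintro ⟨_, l, rfl⟩
    obtain ⟨k, hk⟩ := hL l l.2
    refine ⟨k, Subtype.ext ?_⟩
    rw [SubmonoidClass.coe_pow, ← map_pow]
    exact MonoidHom.mem_ker.1 (H83.mem_secAct_ker.2 fun v hv => by
      rw [commutatorElement_def, SubmonoidClass.coe_pow]; exact hk v hv)
  have hXW : IsPGroup 2 (↥X ⧸ W.subgroupOf X) := (H83.isPGroup_elementary hX).to_quotient _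
  obtain ⟨n, hn⟩ := hXW.exists_card_eq
  have hn0 : n ≠ 0 := by
    intro h0
    rw [h0, pow_zero, ← index_eq_card, index_eq_one, subgroupOf_eq_top] at hn
    exact hWX.not_ge hn
  have h2 : 2 ∣ Nat.card (↥X ⧸ W.subgroupOf X) := hn ▸ dvd_pow_self 2 hn0
  obtain ⟨b, hb, hne⟩ := hp.exists_fixed_point_of_prime_dvd_card_of_fixed_point
    (↥X ⧸ W.subgroupOf X) h2 (a := 1) (fun g => map_one (g : MulAut (↥X ⧸ W.subgroupOf X)))
  obtain ⟨⟨x, hx⟩, rfl⟩ := QuotientGroup.mk_surjective b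
  refine ⟨x, hx, fun hxW => hne ((QuotientGroup.eq_one_iff (N := W.subgroupOf X) ⟨x, hx⟩).2 hxW).symm, fun l hl => ?_⟩
  have h3 : φ ⟨l, hl⟩ ((⟨x, hx⟩ : X) : ↥X ⧸ W.subgroupOf X) = ((⟨x, hx⟩ : X) : ↥X ⧸ W.subgroupOf X) :=
    hb ⟨φ ⟨l, hl⟩, ⟨⟨l, hl⟩, rfl⟩⟩
  rw [H83.secAct_mk, H83.sec_mk_eq, H83.conjRestrict_apply] at h3
  exact h3

/-- An element of odd order trivial on `X/X'` and on `X'/X''` is trivial on `X/X''`. -/
theorem odd_trivial_trans {X X' X'' : Subgroup G} [X'.Normal] [X''.Normal]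
    (hX : IsPGroup 2 X) (hX'X : X' ≤ X) {z : G} (hz : Odd (orderOf z))
    (h1 : z ∈ Cfsg.sectionKernel X X') (h2 : z ∈ Cfsg.sectionKernel X' X'') :
    z ∈ Cfsg.sectionKernel X X'' := by
  rw [mem_secKer] at h1 h2 ⊢
  intro x hx
  obtain ⟨n, hn⟩ := hX.exists_card_eq
  have hcop : (Nat.card (zpowers z)).Coprime (Nat.card X) := by
    rw [Nat.card_zpowers, hn]; exact (Nat.coprime_two_right.2 hz).pow_right n
  have hfix : ∀ a ∈ zpowers z, x⁻¹ * (a * x * a⁻¹) ∈ X' := by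
    intro a ha
    have hle : zpowers z ≤ Cfsg.sectionKernel X X' := zpowers_le.2 (mem_secKer.2 h1)
    have h := mem_secKer.1 (hle ha) x hx
    have := Subgroup.Normal.conj_mem inferInstance _ h x⁻¹
    simpa [mul_assoc] using this
  obtain ⟨c, hc, hxc⟩ := H20.exists_fixed_mem_coset (A := zpowers z) (K := X) (N := X') hcop
    (Or.inl inferInstance) hX'X (le_top.trans_eq (normalizer_eq_top (H := X')).symm) hx hfix
  have hzc : z * c = c * z := mem_centralizer_iff.1 hc.2 z (mem_zpowers z)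
  have hxeq : x = c * (x⁻¹ * c)⁻¹ := by group
  have h := h2 _ (inv_mem hxc)
  have h' := Subgroup.Normal.conj_mem (inferInstance : X''.Normal) _ h c
  rw [hxeq]
  have hz' : z * c * z⁻¹ = c := by rw [hzc, mul_inv_cancel_right]
  have e : z * (c * (x⁻¹ * c)⁻¹) * z⁻¹ * (c * (x⁻¹ * c)⁻¹)⁻¹ =
      z * c * z⁻¹ * (z * (x⁻¹ * c)⁻¹ * z⁻¹ * ((x⁻¹ * c)⁻¹)⁻¹) * c⁻¹ := by group
  rw [e, hz']
  exact h'

omit [Finite G] in
/-- `O²` in the kernel, from the elements of odd order. -/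
theorem pResidual_le {H : Subgroup G} (h : ∀ z : G, Odd (orderOf z) → z ∈ H) :
    Cfsg.pResidual 2 G ≤ H :=
  (closure_le _).2 fun z hz => h z (Nat.coprime_two_right.1 hz)

theorem pResidual_trans {X X' X'' : Subgroup G} [X'.Normal] [X''.Normal]
    (hX : IsPGroup 2 X) (hX'X : X' ≤ X)
    (h1 : Cfsg.pResidual 2 G ≤ Cfsg.sectionKernel X X')
    (h2 : Cfsg.pResidual 2 G ≤ Cfsg.sectionKernel X' X'') :
    Cfsg.pResidual 2 G ≤ Cfsg.sectionKernel X X'' := by
  refine pResidual_le fun z hz => ?_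
  have hzΩ : z ∈ Cfsg.pResidual 2 G := subset_closure (Nat.coprime_two_right.2 hz)
  exact odd_trivial_trans hX hX'X hz (h1 hzΩ) (h2 hzΩ)

/-- The offender bound on a chief section inside an elementary abelian normal subgroup. -/
theorem chief_bound {X W : Subgroup G} [W.Normal] (hXn : X.Normal) (hX : Cfsg.IsElementaryAbelian 2 X)
    (hWX : W < X) (hchief : ∀ N : Subgroup G, N.Normal → W ≤ N → N ≤ X → N = W ∨ N = X)
    (h3 : ¬ Cfsg.Involves (Equiv.Perm (Fin 3)) G) (hK : CompK G) {A F : Subgroup G}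
    (hA : ∀ a ∈ A, a * a = 1)
    (hF : ∀ x, x ∈ F ↔ x ∈ X ∧ ∀ a ∈ A, a * x * a⁻¹ * x⁻¹ ∈ W) :
    (Cfsg.sectionKernel X W).relIndex A ^ 2 ≤ F.relIndex X := by
  haveI := hXn
  haveI : Fact (Nat.Prime 2) := ⟨Nat.prime_two⟩
  haveI : IsMulCommutative X := hX.1
  haveI hWn : (W.subgroupOf X).Normal := inferInstance
  letI : CommGroup (↥X ⧸ W.subgroupOf X) :=
    { (inferInstance : Group (↥X ⧸ W.subgroupOf X)) with
      mul_comm := H83.comm_of_sq (H83.section_sq (fun v hv => by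
        rw [H83.mul_self_of_elementary hX hv]; exact one_mem _)) }
  have hnX : (⊤ : Subgroup G) ≤ normalizer (X : Set G) := (normalizer_eq_top (H := X)).ge
  have hnW : (⊤ : Subgroup G) ≤ normalizer (W : Set G) := (normalizer_eq_top (H := W)).ge
  let φ : G →* MulAut (↥X ⧸ W.subgroupOf X) :=
    (H83.secAct hnX hnW).comp (Subgroup.topEquiv (G := G)).symm.toMonoidHom
  have hker : φ.ker = Cfsg.sectionKernel X W := by
    ext g
    rw [mem_secKer, MonoidHom.mem_ker]
    show H83.secAct hnX hnW ⟨g, mem_top g⟩ = 1 ↔ _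
    rw [← MonoidHom.mem_ker, H83.mem_secAct_ker]
    simp [commutatorElement_def]
  let ψ : G ⧸ φ.ker →* MulAut (↥X ⧸ W.subgroupOf X) := QuotientGroup.kerLift φ
  have hψ : Function.Injective ψ := QuotientGroup.kerLift_injective φ
  let π := QuotientGroup.mk' φ.ker
  have hπ : Function.Surjective π := QuotientGroup.mk'_surjective _
  have hO : Cfsg.pCore 2 (G ⧸ φ.ker) = ⊥ := by
    set D := (Cfsg.pCore 2 (G ⧸ φ.ker)).comap π with hD
    have hDn : D.Normal := (H19.pCore_normal 2 _).comap π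
    have hDpow : ∀ l ∈ D, ∃ k : ℕ, l ^ 2 ^ k ∈ φ.ker := by
      intro l hl
      obtain ⟨k, hk⟩ := H19.pCore_isPGroup (G := G ⧸ φ.ker) 2 ⟨π l, hl⟩
      refine ⟨k, ?_⟩
      have h := congrArg Subtype.val hk
      rw [SubmonoidClass.coe_pow, OneMemClass.coe_one, ← map_pow] at h
      exact (QuotientGroup.eq_one_iff _).1 h
    obtain ⟨x, hx, hxW, hfix⟩ := exists_fixed_section (L := D) hX hWX
      (le_top.trans hnX) (le_top.trans hnW) (fun l hl => by
        obtain ⟨k, hk⟩ := hDpow l hl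
        rw [hker, mem_secKer] at hk
        exact ⟨k, hk⟩)
    let N : Subgroup G :=
      { carrier := {y | y ∈ X ∧ ∀ l ∈ D, l * y * l⁻¹ * y⁻¹ ∈ W}
        one_mem' := ⟨one_mem _, fun l _ => by simp⟩
        mul_mem' := fun {a b} ha hb => ⟨mul_mem ha.1 hb.1, fun l hl => by
          have h1 := ha.2 l hl
          have h2 := Subgroup.Normal.conj_mem (inferInstance : W.Normal) _ (hb.2 l hl) a
          have e : l * (a * b) * l⁻¹ * (a * b)⁻¹ =
              l * a * l⁻¹ * a⁻¹ * (a * (l * b * l⁻¹ * b⁻¹) * a⁻¹) := by group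
          rw [e]; exact mul_mem h1 h2⟩
        inv_mem' := fun {a} ha => ⟨inv_mem ha.1, fun l hl => by
          have h1 := Subgroup.Normal.conj_mem (inferInstance : W.Normal) _ (inv_mem (ha.2 l hl)) a⁻¹
          simpa [mul_assoc] using h1⟩ }
    have hNn : N.Normal := ⟨fun y hy g => ⟨Subgroup.Normal.conj_mem hXn y hy.1 g, fun l hl => by
      have h1 := hy.2 (g⁻¹ * l * g) (by
        have := Subgroup.Normal.conj_mem hDn l hl g⁻¹
        simpa using this)
      have h2 := Subgroup.Normal.conj_mem (inferInstance : W.Normal) _ h1 g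
      simpa [mul_assoc] using h2⟩⟩
    have hWN : W ≤ N := fun y hy => ⟨hWX.le hy, fun l _ =>
      mul_mem (Subgroup.Normal.conj_mem inferInstance y hy l) (inv_mem hy)⟩
    have hNX : N = X := (hchief N hNn hWN fun y hy => hy.1).resolve_left fun he =>
      hxW (he.le ⟨hx, hfix⟩)
    rw [eq_bot_iff]
    intro z hz
    obtain ⟨l, rfl⟩ := hπ z
    refine mem_bot.2 ((QuotientGroup.eq_one_iff _).2 ?_)
    rw [hker, mem_secKer]
    exact fun y hy => (hNX.ge hy).2 l hz
  have hb := H34.Suz.fixed_bound ψ hψ (H83.section_sq fun v hv => by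
      rw [H83.mul_self_of_elementary hX hv]; exact one_mem _) hO
    (fun h => h3 (H83.involves_of_quotient h)) (compK_of_surjective hK π hπ) (A.map π)
    (by rintro _ ⟨a, ha, rfl⟩; rw [← map_mul, hA a ha, map_one])
  have hcard : Nat.card ↥(A.map π) = (Cfsg.sectionKernel X W).relIndex A := by
    rw [← relIndex_ker, QuotientGroup.ker_mk', hker]
  have hFsub : (H83.fixedSub ψ ((A.map π : Subgroup (G ⧸ φ.ker)) : Set (G ⧸ φ.ker))).comap
      (QuotientGroup.mk' (W.subgroupOf X)) = F.subgroupOf X := by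
    ext y
    rw [mem_comap, mem_subgroupOf, hF, QuotientGroup.mk'_apply]
    constructor
    · intro h
      refine ⟨y.2, fun a ha => ?_⟩
      have h1 : φ a (y : ↥X ⧸ W.subgroupOf X) = (y : ↥X ⧸ W.subgroupOf X) := h (π a) ⟨a, ha, rfl⟩
      exact H83.sec_mk_eq.1 h1
    · rintro ⟨-, h⟩ _ ⟨a, ha, rfl⟩
      exact H83.sec_mk_eq.2 (h a ha)
  rw [hcard] at hb
  refine hb.trans (le_of_eq ?_)
  rw [← index_comap_of_surjective _ (QuotientGroup.mk'_surjective (W.subgroupOf X)), hFsub]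
  rfl

end Cfsg.Agent.H72.EG
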